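import Mathlib
import Cfsg.Agent.Lib.Helper29.Mono.Api

set_option autoImplicit false
set_option linter.unusedSectionVars false

/-! # [A1] the supports of the centre and the axis of a homology agree -/

namespace Cfsg.Agent.Lib.Helper29.Mono

open Matrix
open scoped MatrixGroups

variable {ι : Type} [Fintype ι] [DecidableEq ι] {F : Type*} [Field F]

/-- (A0) -/
lemma a0 (X : Subgroup (GL ι F))
    (hM : ∀ g : GL ι F, IsMono (g : Matrix ι ι F) → g ∈ X) (hR : ¬ HasRoot X)
    (hc : ∃ c : F, c ≠ 0 ∧ c ≠ 1) (τ : GL ι F) (hτ : τ ∈ X) (i : ι) (ψ : ι → F) (hψ : ψ i = 0)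
    (h : ∀ a b, (τ : Matrix ι ι F) a b = (1 : Matrix ι ι F) a b + if a = i then ψ b else 0)
    (j : ι) : ψ j = 0 := by
  by_contra hj
  have hij : i ≠ j := fun h => hj (h ▸ hψ)
  obtain ⟨c, hc0, hc1⟩ := hc
  apply hR
  have key : hU j (Units.mk0 c hc0) * τ * (hU j (Units.mk0 c hc0))⁻¹
      = τ * rootU hij ((c⁻¹ - 1) * ψ j) := by
    apply Units.ext
    ext a b
    rw [hU, conj_diagU_apply, Units.val_mul, coe_rootU, Matrix.transvection, Matrix.mul_add,
      Matrix.mul_one, Matrix.add_apply, h a b]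
    by_cases hb : b = j
    · subst hb
      rw [Matrix.mul_single_apply_same, h a i, hψ]
      by_cases ha : a = i
      · subst ha
        simp [hij, Function.update_of_ne hij]
        ring
      · by_cases hab : a = b
        · subst hab
          simp [ha, hc0]
        · simp [ha, hab, Matrix.one_apply_ne hab, Matrix.one_apply_ne ha]
    · rw [Matrix.mul_single_apply_of_ne _ _ _ _ _ hb, Function.update_of_ne hb]
      by_cases ha : a = i
      · subst ha
        simp [Function.update_of_ne hij]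
      · by_cases hab : a = b
        · subst hab
          simp [ha, Function.update_of_ne hb]
        · simp [ha, Matrix.one_apply_ne hab]
  refine ⟨rootU hij ((c⁻¹ - 1) * ψ j), ?_, i, j, hij, _, ?_, rfl⟩
  · have : rootU hij ((c⁻¹ - 1) * ψ j)
        = τ⁻¹ * (hU j (Units.mk0 c hc0) * τ * (hU j (Units.mk0 c hc0))⁻¹) := by
      rw [key]; simp
    rw [this]
    have hh := hM _ (isMono_diagU (Function.update 1 j (Units.mk0 c hc0)))
    exact X.mul_mem (X.inv_mem hτ) (X.mul_mem (X.mul_mem hh hτ) (X.inv_mem hh))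
  · refine mul_ne_zero ?_ hj
    intro h0
    apply hc1
    have : c⁻¹ = 1 := by linear_combination h0
    rw [inv_eq_one] at this
    exact this

/-- (R) -/
lemma lemR (X : Subgroup (GL ι F))
    (hM : ∀ g : GL ι F, IsMono (g : Matrix ι ι F) → g ∈ X) (hR : ¬ HasRoot X)
    (hc : ∃ c : F, c ≠ 0 ∧ c ≠ 1) (x : GL ι F) (hx : x ∈ X) (i : ι)
    (hcol : ∀ a, (x : Matrix ι ι F) a i = (1 : Matrix ι ι F) a i) (b : ι) (hb : b ≠ i) :
    (x : Matrix ι ι F) i b = 0 := by
  obtain ⟨c, hc0, hc1⟩ := hc
  obtain ⟨ψ, hψ⟩ : ∃ ψ : ι → F, ψ = fun b => if b = i then 0 else (c - 1) * (x : Matrix ι ι F) i b :=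
    ⟨_, rfl⟩
  have hh := hM _ (isMono_diagU (Function.update 1 i (Units.mk0 c hc0)))
  have key : (x : Matrix ι ι F) * (1 + vecMulVec (Pi.single i 1) ψ)
      = ((hU i (Units.mk0 c hc0) * x * (hU i (Units.mk0 c hc0))⁻¹ : GL ι F) : Matrix ι ι F) := by
    ext a b
    rw [hU, conj_diagU_apply, Matrix.mul_add, Matrix.mul_one, Matrix.mul_vecMulVec,
      Matrix.add_apply, Matrix.vecMulVec_apply, Matrix.mulVec_single_one, Matrix.col_apply, hcol,
      hψ]
    by_cases ha : a = i
    · subst ha
      by_cases hb : b = a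
      · subst hb
        simp [hcol, hc0]
      · simp [hb, Function.update_of_ne hb]
        ring
    · by_cases hb : b = i
      · subst hb
        simp [hcol, Matrix.one_apply_ne ha]
      · simp [Function.update_of_ne ha, Function.update_of_ne hb, Matrix.one_apply_ne ha]
  have hu : ((x⁻¹ * (hU i (Units.mk0 c hc0) * x * (hU i (Units.mk0 c hc0))⁻¹) : GL ι F) :
      Matrix ι ι F) = 1 + vecMulVec (Pi.single i 1) ψ := by
    rw [Units.val_mul, ← key, ← Matrix.mul_assoc, ← Units.val_mul, inv_mul_cancel, Units.val_one,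
      Matrix.one_mul]
  have h0 := a0 X hM hR ⟨c, hc0, hc1⟩ _
    (X.mul_mem (X.inv_mem hx) (X.mul_mem (X.mul_mem hh hx) (X.inv_mem hh))) i ψ (by simp [hψ])
    (by
      intro a b
      change ((x⁻¹ * (hU i (Units.mk0 c hc0) * x * (hU i (Units.mk0 c hc0))⁻¹) : GL ι F) :
        Matrix ι ι F) a b = _
      rw [hu, Matrix.add_apply, Matrix.vecMulVec_apply, Pi.single_apply]
      by_cases ha : a = i <;> simp [ha]) b
  rw [hψ] at h0
  simp only [hb, if_false] at h0
  rcases mul_eq_zero.1 h0 with h | h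
  · exact absurd (by linear_combination h) hc1
  · exact h

/-- [A1] -/
theorem fam_supp (X : Subgroup (GL ι F))
    (hM : ∀ g : GL ι F, IsMono (g : Matrix ι ι F) → g ∈ X) (hR : ¬ HasRoot X)
    (hc : ∃ c : F, c ≠ 0 ∧ c ≠ 1) {v φ : ι → F} (h : IsFam X v φ) (i : ι) :
    v i = 0 ↔ φ i = 0 := by
  obtain ⟨c, hc0, hc1⟩ := hc
  have hc1' : c - 1 ≠ 0 := sub_ne_zero.2 hc1
  obtain ⟨y, hy, hyc⟩ := h.2 c hc0
  have hyab : ∀ a b, (y : Matrix ι ι F) a b = (1 : Matrix ι ι F) a b + (c - 1) * (v a * φ b) := by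
    intro a b
    rw [hyc, Matrix.add_apply, Matrix.smul_apply, Matrix.vecMulVec_apply, smul_eq_mul]
  constructor
  · intro hv
    by_contra hφ
    have hMt : ∀ g : GL ι F, IsMono (g : Matrix ι ι F) → g ∈ tSub X := by
      intro g hg
      exact ⟨tU g, hM _ hg.transpose, by rw [coe_tU, Matrix.transpose_transpose]⟩
    have h1 := lemR (tSub X) hMt (fun hr => hR (hasRoot_tSub hr)) ⟨c, hc0, hc1⟩ (tU y)
      ⟨y, hy, rfl⟩ i (by
        intro a
        rw [coe_tU, Matrix.transpose_apply, hyab, hv]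
        simp [Matrix.one_apply, eq_comm])
    have hv0 : v = 0 := by
      ext b
      by_cases hb : b = i
      · rw [hb, hv]; rfl
      · have := h1 b hb
        rw [coe_tU, Matrix.transpose_apply, hyab, Matrix.one_apply_ne hb, zero_add] at this
        rcases mul_eq_zero.1 this with h | h
        · exact absurd h hc1'
        · exact (mul_eq_zero.1 h).resolve_right hφ
    have := h.1
    rw [hv0, dotProduct_zero] at this
    exact zero_ne_one this
  · intro hφ
    by_contra hv
    have h1 := lemR X hM hR ⟨c, hc0, hc1⟩ y hy i (by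
      intro a
      rw [hyab, hφ]
      simp)
    have hφ0 : φ = 0 := by
      ext b
      by_cases hb : b = i
      · rw [hb, hφ]; rfl
      · have := h1 b hb
        rw [hyab, Matrix.one_apply_ne (Ne.symm hb), zero_add] at this
        rcases mul_eq_zero.1 this with h | h
        · exact absurd h hc1'
        · exact (mul_eq_zero.1 h).resolve_left hv
    have := h.1
    rw [hφ0, zero_dotProduct] at this
    exact zero_ne_one this

end Cfsg.Agent.Lib.Helper29.Mono
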