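import Mathlib
import Cfsg.Agent.Lib.Helper29.Mono.Api

set_option autoImplicit false
set_option linter.unusedSectionVars false

/-! # [A2] calculus of families of homologies -/

namespace Cfsg.Agent.Lib.Helper29.Mono

open Matrix
open scoped MatrixGroups

variable {ι : Type} [Fintype ι] [DecidableEq ι] {F : Type*} [Field F]

/-- [A2] -/
theorem fam_conj (X : Subgroup (GL ι F)) {v φ : ι → F} (h : IsFam X v φ) {x : GL ι F}
    (hx : x ∈ X) :
    IsFam X ((x : Matrix ι ι F) *ᵥ v) (φ ᵥ* ((x⁻¹ : GL ι F) : Matrix ι ι F)) := by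
  have hxx : ((x⁻¹ : GL ι F) : Matrix ι ι F) * (x : Matrix ι ι F) = 1 := by
    rw [← Units.val_mul, inv_mul_cancel, Units.val_one]
  have hxx' : (x : Matrix ι ι F) * ((x⁻¹ : GL ι F) : Matrix ι ι F) = 1 := by
    rw [← Units.val_mul, mul_inv_cancel, Units.val_one]
  refine ⟨?_, fun c hc => ?_⟩
  · rw [← Matrix.dotProduct_mulVec, Matrix.mulVec_mulVec, hxx, Matrix.one_mulVec]
    exact h.1
  · obtain ⟨y, hy, hyc⟩ := h.2 c hc
    refine ⟨x * y * x⁻¹, X.mul_mem (X.mul_mem hx hy) (X.inv_mem hx), ?_⟩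
    rw [Units.val_mul, Units.val_mul, hyc, Matrix.mul_add, Matrix.add_mul, Matrix.mul_one, hxx',
      Matrix.mul_smul, Matrix.smul_mul, Matrix.mul_vecMulVec, Matrix.vecMulVec_mul]

/-- [A2] -/
theorem fam_single (X : Subgroup (GL ι F))
    (hM : ∀ g : GL ι F, IsMono (g : Matrix ι ι F) → g ∈ X) (i : ι) :
    IsFam X (Pi.single i 1) (Pi.single i 1) := by
  refine ⟨by simp, fun c hc => ⟨hU i (Units.mk0 c hc), hM _ (isMono_diagU _), ?_⟩⟩
  rw [coe_hU]
  congr 2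
  ext a b
  simp only [Matrix.single_apply, Matrix.vecMulVec_apply, Pi.single_apply]
  by_cases ha : i = a <;> by_cases hb : i = b <;> simp [ha, hb, eq_comm]

/-- [A2] -/
theorem fam_row (X : Subgroup (GL ι F))
    (hM : ∀ g : GL ι F, IsMono (g : Matrix ι ι F) → g ∈ X) {g : GL ι F} (hg : g ∈ X) (k : ι) :
    IsFam X (fun i => ((g⁻¹ : GL ι F) : Matrix ι ι F) i k) (fun j => (g : Matrix ι ι F) k j) := by
  have h := fam_conj X (fam_single X hM k) (X.inv_mem hg)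
  rw [inv_inv] at h
  convert h using 1
  · ext i; simp
  · ext j; simp

lemma fam_inv_aux {v φ : ι → F} (h1 : φ ⬝ᵥ v = 1) {c : F} (hc : c ≠ 0) :
    (1 + (c - 1) • vecMulVec v φ) * (1 + (c⁻¹ - 1) • vecMulVec v φ) = 1 := by
  have hP : vecMulVec v φ * vecMulVec v φ = vecMulVec v φ := by
    rw [Matrix.vecMulVec_mul_vecMulVec, h1, one_smul]
  rw [Matrix.add_mul, Matrix.mul_add, Matrix.mul_add, Matrix.one_mul, Matrix.one_mul,
    Matrix.mul_one, Matrix.smul_mul, Matrix.mul_smul, hP, smul_smul, add_assoc, ← add_smul,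
    ← add_smul]
  have : c⁻¹ - 1 + (c - 1 + (c - 1) * (c⁻¹ - 1)) = 0 := by
    field_simp
    ring
  rw [this, zero_smul, add_zero]

/-- the inverse of `y(c)` is `y(c⁻¹)` -/
lemma fam_inv {v φ : ι → F} (h1 : φ ⬝ᵥ v = 1) {c : F} (hc : c ≠ 0) {y : GL ι F}
    (hy : (y : Matrix ι ι F) = 1 + (c - 1) • vecMulVec v φ) :
    ((y⁻¹ : GL ι F) : Matrix ι ι F) = 1 + (c⁻¹ - 1) • vecMulVec v φ := by
  have h2 := fam_inv_aux h1 hc
  rw [← hy] at h2
  have h3 : ((y⁻¹ : GL ι F) : Matrix ι ι F) * ((y : Matrix ι ι F) *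
      (1 + (c⁻¹ - 1) • vecMulVec v φ)) = ((y⁻¹ : GL ι F) : Matrix ι ι F) := by
    rw [h2, Matrix.mul_one]
  rw [← Matrix.mul_assoc, ← Units.val_mul, inv_mul_cancel, Units.val_one, Matrix.one_mul] at h3
  exact h3.symm

/-- [A2] -/
theorem fam_two (X : Subgroup (GL ι F)) {v φ v' φ' : ι → F} (h : IsFam X v φ)
    (h' : IsFam X v' φ') (c : F) (hc : c ≠ 0) :
    IsFam X (v + ((c - 1) * (φ' ⬝ᵥ v)) • v') (φ + ((c⁻¹ - 1) * (φ ⬝ᵥ v')) • φ') := by
  obtain ⟨y, hy, hyc⟩ := h'.2 c hc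
  have h2 := fam_conj X h hy
  rw [fam_inv h'.1 hc hyc, hyc] at h2
  convert h2 using 1
  · rw [Matrix.add_mulVec, Matrix.one_mulVec, Matrix.smul_mulVec, Matrix.vecMulVec_mulVec]
    ext k
    simp only [Pi.add_apply, Pi.smul_apply, smul_eq_mul, MulOpposite.smul_eq_mul_unop,
      MulOpposite.unop_op]
    ring
  · rw [Matrix.vecMul_add, Matrix.vecMul_one, Matrix.vecMul_smul, Matrix.vecMul_vecMulVec,
      smul_smul]

/-- [A2] -/
theorem fam_step (X : Subgroup (GL ι F))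
    (hM : ∀ g : GL ι F, IsMono (g : Matrix ι ι F) → g ∈ X) {v φ : ι → F} (h : IsFam X v φ)
    (i : ι) (c : F) (hc : c ≠ 0) :
    IsFam X (Pi.single i 1 + ((c - 1) * φ i) • v) (Pi.single i 1 + ((c⁻¹ - 1) * v i) • φ) := by
  have h2 := fam_two X (fam_single X hM i) h c hc
  simpa using h2

/-- [A2] -/
theorem fam_perm (X : Subgroup (GL ι F))
    (hM : ∀ g : GL ι F, IsMono (g : Matrix ι ι F) → g ∈ X) {v φ : ι → F} (h : IsFam X v φ)
    (σ : Equiv.Perm ι) : IsFam X (v ∘ σ) (φ ∘ σ) := by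
  have h2 := fam_conj X h (hM _ (isMono_permU σ⁻¹))
  convert h2 using 1
  · ext i
    rw [Matrix.mulVec, dotProduct, Finset.sum_eq_single (σ i)]
    · simp [permU_apply]
    · intro k _ hk
      have : i ≠ σ⁻¹ k := fun h => hk (by rw [h]; simp)
      rw [permU_apply, if_neg this, zero_mul]
    · intro h; exact absurd (Finset.mem_univ _) h
  · ext j
    rw [Matrix.vecMul, dotProduct, Finset.sum_eq_single (σ j)]
    · simp [permU_inv_apply]
    · intro k _ hk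
      have : σ⁻¹ k ≠ j := fun h => hk (by rw [← h]; simp)
      rw [permU_inv_apply, if_neg this, mul_zero]
    · intro h; exact absurd (Finset.mem_univ _) h

end Cfsg.Agent.Lib.Helper29.Mono
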