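import Mathlib
import Cfsg.Agent.Lib.Helper29.Mono.Api

set_option autoImplicit false
set_option linter.unusedSectionVars false

/-! # [A3a] -/

namespace Cfsg.Agent.Lib.Helper29.Mono

open Matrix
open scoped MatrixGroups

variable {ι : Type} [Fintype ι] [DecidableEq ι] {F : Type*} [Field F]

/-- [A3a] -/
theorem fam_alpha (Fam : (ι → F) → (ι → F) → Prop)
    (hsupp : ∀ v φ, Fam v φ → ∀ i, v i = 0 ↔ φ i = 0)
    (hstep : ∀ v φ, Fam v φ → ∀ (i : ι) (c : F), c ≠ 0 →
      Fam (Pi.single i 1 + ((c - 1) * φ i) • v) (Pi.single i 1 + ((c⁻¹ - 1) * v i) • φ))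
    (v φ : ι → F) (h : Fam v φ) (i : ι) (hi : v i ≠ 0) :
    v i * φ i = 1 ∨ 2 * (v i * φ i) = 1 := by
  have hφi : φ i ≠ 0 := fun h0 => hi ((hsupp v φ h i).2 h0)
  by_cases h1 : v i * φ i = 1
  · exact Or.inl h1
  · right
    obtain ⟨α, hα⟩ : ∃ α, α = v i * φ i := ⟨_, rfl⟩
    rw [← hα] at h1 ⊢
    have hα0 : α ≠ 0 := hα ▸ mul_ne_zero hi hφi
    have hβ : 1 - α⁻¹ ≠ 0 := by
      intro h0
      apply h1
      have : α⁻¹ = 1 := by linear_combination -h0
      rw [inv_eq_one] at this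
      exact this
    have h2 := hsupp _ _ (hstep v φ h i (1 - α⁻¹) hβ) i
    have h3 : (Pi.single i 1 + ((1 - α⁻¹ - 1) * φ i) • v : ι → F) i = 0 := by
      simp only [Pi.add_apply, Pi.single_eq_same, Pi.smul_apply, smul_eq_mul]
      have : (1 - α⁻¹ - 1) * φ i * v i = - (α⁻¹ * α) := by
        linear_combination α⁻¹ * hα
      rw [this, inv_mul_cancel₀ hα0]; ring
    have h4 := h2.1 h3
    simp only [Pi.add_apply, Pi.single_eq_same, Pi.smul_apply, smul_eq_mul] at h4
    have h5 : 1 + ((1 - α⁻¹)⁻¹ - 1) * α = 0 := by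
      linear_combination h4 + ((1 - α⁻¹)⁻¹ - 1) * hα
    -- multiply by β = 1 - α⁻¹ and by α
    have h6 : (1 - α⁻¹) * (1 + ((1 - α⁻¹)⁻¹ - 1) * α) = 0 := by rw [h5, mul_zero]
    have h7 : (1 - α⁻¹) + (1 - (1 - α⁻¹)) * α = 0 := by
      have : (1 - α⁻¹) * (1 + ((1 - α⁻¹)⁻¹ - 1) * α)
          = (1 - α⁻¹) + ((1 - α⁻¹) * (1 - α⁻¹)⁻¹ - (1 - α⁻¹)) * α := by ring
      rw [this, mul_inv_cancel₀ hβ] at h6
      exact h6
    have h8 : 2 - α⁻¹ = 0 := by
      have : (1 - α⁻¹) + (1 - (1 - α⁻¹)) * α = 1 - α⁻¹ + α⁻¹ * α := by ring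
      rw [this, inv_mul_cancel₀ hα0] at h7
      linear_combination h7
    have : (2 - α⁻¹) * α = 2 * α - α⁻¹ * α := by ring
    rw [h8, inv_mul_cancel₀ hα0, zero_mul] at this
    linear_combination -this

lemma exists_c_aux [Fintype F] (hq : 5 ≤ Fintype.card F) :
    ∃ c : F, c ≠ 0 ∧ c ≠ 1 ∧ c ≠ -1 ∧ ((3 : F) ≠ 0 ∨ c ^ 2 ≠ -1) := by
  classical
  by_cases h5 : Fintype.card F = 5
  · have hcast : ((Fintype.card F : ℕ) : F) = 0 := Nat.cast_card_eq_zero F
    rw [h5] at hcast
    have h5' : (5 : F) = 0 := by exact_mod_cast hcast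
    have h3 : (3 : F) ≠ 0 := by
      intro h3
      have : (1 : F) = 0 := by linear_combination 2 * h3 - h5'
      exact one_ne_zero this
    obtain ⟨c, hc⟩ : ∃ c : F, c ∉ ({0, 1, -1} : Finset F) := by
      by_contra hcon
      push Not at hcon
      have : Fintype.card F ≤ ({0, 1, -1} : Finset F).card := by
        rw [← Finset.card_univ]
        exact Finset.card_le_card fun x _ => hcon x
      have h3 : ({0, 1, -1} : Finset F).card ≤ 3 := Finset.card_le_three
      omega
    simp only [Finset.mem_insert, Finset.mem_singleton, not_or] at hc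
    exact ⟨c, hc.1, hc.2.1, hc.2.2, Or.inl h3⟩
  · by_cases ha : ∃ a : F, a ^ 2 = -1
    · obtain ⟨a, ha⟩ := ha
      obtain ⟨c, hc⟩ : ∃ c : F, c ∉ ({0, 1, -1, a, -a} : Finset F) := by
        by_contra hcon
        push Not at hcon
        have : Fintype.card F ≤ ({0, 1, -1, a, -a} : Finset F).card := by
          rw [← Finset.card_univ]
          exact Finset.card_le_card fun x _ => hcon x
        have h3 : ({0, 1, -1, a, -a} : Finset F).card ≤ 5 := Finset.card_le_five
        omega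
      simp only [Finset.mem_insert, Finset.mem_singleton, not_or] at hc
      refine ⟨c, hc.1, hc.2.1, hc.2.2.1, Or.inr ?_⟩
      intro hc2
      have : (c - a) * (c + a) = 0 := by linear_combination hc2 - ha
      rcases mul_eq_zero.1 this with h | h
      · exact hc.2.2.2.1 (by linear_combination h)
      · exact hc.2.2.2.2 (by linear_combination h)
    · push Not at ha
      obtain ⟨c, hc⟩ : ∃ c : F, c ∉ ({0, 1, -1} : Finset F) := by
        by_contra hcon
        push Not at hcon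
        have : Fintype.card F ≤ ({0, 1, -1} : Finset F).card := by
          rw [← Finset.card_univ]
          exact Finset.card_le_card fun x _ => hcon x
        have h3 : ({0, 1, -1} : Finset F).card ≤ 3 := Finset.card_le_three
        omega
      simp only [Finset.mem_insert, Finset.mem_singleton, not_or] at hc
      exact ⟨c, hc.1, hc.2.1, hc.2.2, Or.inr (ha c)⟩

/-- [A3a] -/
theorem fam_no_two [Fintype F] (hq : 5 ≤ Fintype.card F) (Fam : (ι → F) → (ι → F) → Prop)
    (hdot : ∀ v φ, Fam v φ → φ ⬝ᵥ v = 1)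
    (hsupp : ∀ v φ, Fam v φ → ∀ i, v i = 0 ↔ φ i = 0)
    (halpha : ∀ v φ, Fam v φ → ∀ i, v i ≠ 0 → v i * φ i = 1 ∨ 2 * (v i * φ i) = 1)
    (htwo : ∀ v φ v' φ', Fam v φ → Fam v' φ' → ∀ c : F, c ≠ 0 →
      Fam (v + ((c - 1) * (φ' ⬝ᵥ v)) • v') (φ + ((c⁻¹ - 1) * (φ ⬝ᵥ v')) • φ'))
    (hperm : ∀ v φ, Fam v φ → ∀ σ : Equiv.Perm ι, Fam (v ∘ σ) (φ ∘ σ))
    (v φ : ι → F) (h : Fam v φ) (i j m : ι) (hij : i ≠ j) (hmi : m ≠ i) (hmj : m ≠ j)
    (hi : v i ≠ 0) (hj : v j ≠ 0) (h0 : ∀ k, k ≠ i → k ≠ j → v k = 0) : False := by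
  have hφi : φ i ≠ 0 := fun h0 => hi ((hsupp v φ h i).2 h0)
  have hφj : φ j ≠ 0 := fun h0 => hj ((hsupp v φ h j).2 h0)
  have hvm : v m = 0 := h0 m hmi hmj
  have hφm : φ m = 0 := (hsupp v φ h m).1 hvm
  -- sums over two places
  have hsum : ∀ w : ι → F, w ⬝ᵥ v = w i * v i + w j * v j := by
    intro w
    rw [dotProduct, ← Finset.sum_subset (Finset.subset_univ ({i, j} : Finset ι)),
      Finset.sum_pair hij]
    intro k _ hk
    simp only [Finset.mem_insert, Finset.mem_singleton, not_or] at hk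
    rw [h0 k hk.1 hk.2, mul_zero]
  have hsum' : ∀ w : ι → F, φ ⬝ᵥ w = φ i * w i + φ j * w j := by
    intro w
    rw [dotProduct, ← Finset.sum_subset (Finset.subset_univ ({i, j} : Finset ι)),
      Finset.sum_pair hij]
    intro k _ hk
    simp only [Finset.mem_insert, Finset.mem_singleton, not_or] at hk
    rw [(hsupp v φ h k).1 (h0 k hk.1 hk.2), zero_mul]
  have hone : φ i * v i + φ j * v j = 1 := by rw [← hsum]; exact hdot v φ h
  have hαi : 2 * (v i * φ i) = 1 := by
    rcases halpha v φ h i hi with h1 | h1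
    · exfalso
      have : φ j * v j = 0 := by linear_combination hone - h1
      exact (mul_ne_zero hφj hj) this
    · exact h1
  have hαj : 2 * (v j * φ j) = 1 := by
    rcases halpha v φ h j hj with h1 | h1
    · exfalso
      have : φ i * v i = 0 := by linear_combination hone - h1
      exact (mul_ne_zero hφi hi) this
    · exact h1
  have h2 : (2 : F) ≠ 0 := by
    intro h2
    rw [h2, zero_mul] at hαi
    exact zero_ne_one hαi
  obtain ⟨c, hc0, hc1, hcm1, hc3⟩ := exists_c_aux (F := F) hq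
  have hp := hperm v φ h (Equiv.swap i m)
  have hf := htwo v φ _ _ h hp c hc0
  have e1 : (φ ∘ (Equiv.swap i m)) ⬝ᵥ v = φ j * v j := by
    rw [hsum]
    simp [Equiv.swap_apply_left, Equiv.swap_apply_of_ne_of_ne hij.symm hmj.symm, hφm]
  have e2 : φ ⬝ᵥ (v ∘ (Equiv.swap i m)) = φ j * v j := by
    rw [hsum']
    simp [Equiv.swap_apply_left, Equiv.swap_apply_of_ne_of_ne hij.symm hmj.symm, hvm]
  rw [e1, e2] at hf
  have hm := halpha _ _ hf m (by
    simp only [Pi.add_apply, Pi.smul_apply, Function.comp_apply, Equiv.swap_apply_right,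
      smul_eq_mul, hvm, zero_add]
    exact mul_ne_zero (mul_ne_zero (sub_ne_zero.2 hc1) (mul_ne_zero hφj hj)) hi)
  have hjj := halpha _ _ hf j (by
    simp only [Pi.add_apply, Pi.smul_apply, Function.comp_apply,
      Equiv.swap_apply_of_ne_of_ne hij.symm hmj.symm, smul_eq_mul]
    have : v j + (c - 1) * (φ j * v j) * v j = v j * (1 + (c - 1) * (v j * φ j)) := by ring
    rw [this]
    refine mul_ne_zero hj ?_
    intro h0
    apply hcm1
    have : 2 * (1 + (c - 1) * (v j * φ j)) = 2 + (c - 1) * (2 * (v j * φ j)) := by ring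
    rw [h0, hαj] at this
    linear_combination -this)
  simp only [Pi.add_apply, Pi.smul_apply, Function.comp_apply, Equiv.swap_apply_right,
    Equiv.swap_apply_of_ne_of_ne hij.symm hmj.symm, smul_eq_mul, hvm, hφm, zero_add] at hm hjj
  -- abbreviations
  obtain ⟨a, ha⟩ : ∃ a, a = v i * φ i := ⟨_, rfl⟩
  obtain ⟨b, hb⟩ : ∃ b, b = v j * φ j := ⟨_, rfl⟩
  have hcc : c * c⁻¹ = 1 := mul_inv_cancel₀ hc0
  have hm' : (c - 1) * (c⁻¹ - 1) * (b * b * a) = 1 ∨ 2 * ((c - 1) * (c⁻¹ - 1) * (b * b * a)) = 1 := by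
    rcases hm with h | h
    · left; rw [ha, hb]; linear_combination h
    · right; rw [ha, hb]; linear_combination h
  have hj' : b * (1 + (c - 1) * b) * (1 + (c⁻¹ - 1) * b) = 1 ∨
      2 * (b * (1 + (c - 1) * b) * (1 + (c⁻¹ - 1) * b)) = 1 := by
    rcases hjj with h | h
    · left; rw [hb]; linear_combination h
    · right; rw [hb]; linear_combination h
  rw [← ha] at hαi
  rw [← hb] at hαj
  -- a = b = 1/2 : multiply out by 8
  have hA : 8 * ((c - 1) * (c⁻¹ - 1) * (b * b * a)) = 2 - c - c⁻¹ := by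
    have : 8 * ((c - 1) * (c⁻¹ - 1) * (b * b * a))
        = (c - 1) * (c⁻¹ - 1) * ((2 * b) * (2 * b) * (2 * a)) := by ring
    rw [this, hαi, hαj]
    linear_combination hcc
  have hB : 8 * (b * (1 + (c - 1) * b) * (1 + (c⁻¹ - 1) * b)) = 2 + c + c⁻¹ := by
    have : 8 * (b * (1 + (c - 1) * b) * (1 + (c⁻¹ - 1) * b))
        = (2 * b) * (2 + (c - 1) * (2 * b)) * (2 + (c⁻¹ - 1) * (2 * b)) := by ring
    rw [this, hαj]
    linear_combination hcc
  have h4 : (4 : F) ≠ 0 := by
    intro h4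
    have : (2 : F) * 2 = 0 := by linear_combination h4
    exact h2 (mul_self_eq_zero.1 this)
  -- four cases
  rcases hm' with hm1 | hm1 <;> rcases hj' with hj1 | hj1
  · -- 2 - s = 8, 2 + s = 8 : 12 = 0, s = -6
    rw [hm1] at hA
    rw [hj1] at hB
    have h12 : (4 : F) * 3 = 0 := by linear_combination hA + hB
    have h3 : (3 : F) = 0 := (mul_eq_zero.1 h12).resolve_left h4
    rcases hc3 with h | h
    · exact h h3
    · apply h
      have hs : c + c⁻¹ = 0 := by linear_combination hA - 2 * h3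
      have : c * (c + c⁻¹) = c ^ 2 + c * c⁻¹ := by ring
      rw [hs, hcc, mul_zero] at this
      linear_combination -this
  · -- 2 - s = 8, 2(…)=1 : 2 + s = 4 : 4 = 12
    have hB' : (4 : F) = 2 + c + c⁻¹ := by
      have : 8 * (b * (1 + (c - 1) * b) * (1 + (c⁻¹ - 1) * b))
          = 4 * (2 * (b * (1 + (c - 1) * b) * (1 + (c⁻¹ - 1) * b))) := by ring
      rw [this, hj1] at hB
      linear_combination hB
    rw [hm1] at hA
    have : (4 : F) * 2 = 0 := by linear_combination hA + hB'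
    exact (mul_ne_zero h4 h2) this
  · have hA' : (4 : F) = 2 - c - c⁻¹ := by
      have : 8 * ((c - 1) * (c⁻¹ - 1) * (b * b * a))
          = 4 * (2 * ((c - 1) * (c⁻¹ - 1) * (b * b * a))) := by ring
      rw [this, hm1] at hA
      linear_combination hA
    rw [hj1] at hB
    have : (4 : F) * 2 = 0 := by linear_combination hA' + hB
    exact (mul_ne_zero h4 h2) this
  · have hA' : (4 : F) = 2 - c - c⁻¹ := by
      have : 8 * ((c - 1) * (c⁻¹ - 1) * (b * b * a))
          = 4 * (2 * ((c - 1) * (c⁻¹ - 1) * (b * b * a))) := by ring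
      rw [this, hm1] at hA
      linear_combination hA
    have hB' : (4 : F) = 2 + c + c⁻¹ := by
      have : 8 * (b * (1 + (c - 1) * b) * (1 + (c⁻¹ - 1) * b))
          = 4 * (2 * (b * (1 + (c - 1) * b) * (1 + (c⁻¹ - 1) * b))) := by ring
      rw [this, hj1] at hB
      linear_combination hB
    exact h4 (by linear_combination hA' + hB')

end Cfsg.Agent.Lib.Helper29.Mono
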