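import Mathlib
import Cfsg.Agent.Lib.Helper29.Mono.Api

set_option autoImplicit false
set_option linter.unusedSectionVars false

/-! # [A3b] -/

namespace Cfsg.Agent.Lib.Helper29.Mono

open Matrix
open scoped MatrixGroups

variable {ι : Type} [Fintype ι] [DecidableEq ι] {F : Type*} [Field F]

/-- [A3b] -/
theorem fam_induct [Fintype F] (hq : 5 ≤ Fintype.card F) (Fam : (ι → F) → (ι → F) → Prop)
    (hdot : ∀ v φ, Fam v φ → φ ⬝ᵥ v = 1)
    (hsupp : ∀ v φ, Fam v φ → ∀ i, v i = 0 ↔ φ i = 0)
    (hstep : ∀ v φ, Fam v φ → ∀ (i : ι) (c : F), c ≠ 0 →
      Fam (Pi.single i 1 + ((c - 1) * φ i) • v) (Pi.single i 1 + ((c⁻¹ - 1) * v i) • φ))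
    (halpha : ∀ v φ, Fam v φ → ∀ i, v i ≠ 0 → v i * φ i = 1 ∨ 2 * (v i * φ i) = 1)
    (hno2 : ∀ v φ, Fam v φ → ∀ i j, i ≠ j → v i ≠ 0 → v j ≠ 0 →
      (∀ k, k ≠ i → k ≠ j → v k = 0) → False)
    (v φ : ι → F) (h : Fam v φ) (i j : ι) (hi : v i ≠ 0) (hj : v j ≠ 0) : i = j := by
  classical
  have main : ∀ k : ℕ, ∀ v φ : ι → F, Fam v φ →
      (Finset.univ.filter fun l => v l ≠ 0).card = k → k ≤ 1 := by
    intro k
    induction k using Nat.strong_induction_on with
    | _ k IH =>
      intro v φ h hk
      by_contra hk1
      push Not at hk1
      by_cases hk2 : k = 2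
      · rw [hk2, Finset.card_eq_two] at hk
        obtain ⟨a, b, hab, hS⟩ := hk
        have hmem : ∀ l, v l ≠ 0 ↔ l = a ∨ l = b := by
          intro l
          have := Finset.ext_iff.1 hS l
          simpa using this
        exact hno2 v φ h a b hab ((hmem a).2 (Or.inl rfl)) ((hmem b).2 (Or.inr rfl))
          (fun l hla hlb => by
            by_contra hl
            rcases (hmem l).1 hl with h | h
            · exact hla h
            · exact hlb h)
      · have hk3 : 3 ≤ k := by omega
        -- (i)
        have hall : ∀ v φ : ι → F, Fam v φ → (Finset.univ.filter fun l => v l ≠ 0).card = k →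
            ∀ a, v a ≠ 0 → v a * φ a = 1 := by
          intro v φ h hk a ha
          rcases halpha v φ h a ha with h1 | h1
          · exact h1
          · exfalso
            have h2 : (2 : F) ≠ 0 := by
              intro h2
              rw [h2, zero_mul] at h1
              exact zero_ne_one h1
            have hφa : φ a ≠ 0 := fun h0 => ha ((hsupp v φ h a).2 h0)
            have hf := hstep v φ h a (-1) (neg_ne_zero.2 one_ne_zero)
            have hS : (Finset.univ.filter fun l =>
                (Pi.single a 1 + ((-1 - 1) * φ a) • v : ι → F) l ≠ 0)
                = (Finset.univ.filter fun l => v l ≠ 0).erase a := by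
              ext l
              simp only [Finset.mem_filter, Finset.mem_univ, true_and, Finset.mem_erase,
                Pi.add_apply, Pi.smul_apply, smul_eq_mul]
              by_cases hl : l = a
              · subst hl
                simp only [Pi.single_eq_same, ne_eq, not_true_eq_false, false_and, iff_false,
                  not_not]
                linear_combination (-1 : F) * h1
              · simp only [Pi.single_eq_of_ne hl, zero_add, ne_eq, hl, not_false_eq_true,
                  true_and]
                have : (-1 - 1 : F) * φ a ≠ 0 := by
                  refine mul_ne_zero ?_ hφa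
                  intro h0
                  exact h2 (by linear_combination -h0)
                rw [mul_eq_zero, not_or]
                exact ⟨fun h => h.2, fun h => ⟨this, h⟩⟩
            have hcard := IH (k - 1) (by omega) _ _ hf (by
              rw [hS, Finset.card_erase_of_mem (by simp [ha]), hk])
            omega
        -- (ii)
        obtain ⟨a, ha, b, hb, hab⟩ := Finset.one_lt_card.1 (hk ▸ hk1)
        simp only [Finset.mem_filter, Finset.mem_univ, true_and] at ha hb
        have hφa : φ a ≠ 0 := fun h0 => ha ((hsupp v φ h a).2 h0)
        have hαa := hall v φ h hk a ha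
        have hαb := hall v φ h hk b hb
        have hquad : ∀ c : F, c ≠ 0 → c ≠ 1 → c ^ 2 - c + 1 = 0 := by
          intro c hc0 hc1
          have hf := hstep v φ h a c hc0
          have hS : (Finset.univ.filter fun l =>
              (Pi.single a 1 + ((c - 1) * φ a) • v : ι → F) l ≠ 0)
              = (Finset.univ.filter fun l => v l ≠ 0) := by
            ext l
            simp only [Finset.mem_filter, Finset.mem_univ, true_and,
              Pi.add_apply, Pi.smul_apply, smul_eq_mul]
            by_cases hl : l = a
            · subst hl
              simp only [Pi.single_eq_same, ne_eq, ha, not_false_eq_true, iff_true]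
              have : 1 + (c - 1) * φ l * v l = c := by linear_combination (c - 1) * hαa
              rw [this]
              exact hc0
            · simp only [Pi.single_eq_of_ne hl, zero_add, ne_eq]
              have : (c - 1) * φ a ≠ 0 := mul_ne_zero (sub_ne_zero.2 hc1) hφa
              rw [mul_eq_zero, not_or]
              exact ⟨fun h => h.2, fun h => ⟨this, h⟩⟩
          have hb' : (Pi.single a 1 + ((c - 1) * φ a) • v : ι → F) b ≠ 0 := by
            have : b ∈ (Finset.univ.filter fun l =>
              (Pi.single a 1 + ((c - 1) * φ a) • v : ι → F) l ≠ 0) := by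
              rw [hS]; simp [hb]
            simpa using this
          have h1 := hall _ _ hf (by rw [hS, hk]) b hb'
          simp only [Pi.add_apply, Pi.smul_apply, smul_eq_mul, Pi.single_eq_of_ne hab.symm,
            zero_add] at h1
          have hcc : c * c⁻¹ = 1 := mul_inv_cancel₀ hc0
          have h2 : (c - 1) * (c⁻¹ - 1) = 1 := by
            have : (c - 1) * φ a * v b * ((c⁻¹ - 1) * v a * φ b)
                = (c - 1) * (c⁻¹ - 1) * ((v a * φ a) * (v b * φ b)) := by ring
            rw [this, hαa, hαb] at h1
            linear_combination h1
          have h3 : c * ((c - 1) * (c⁻¹ - 1)) = (c - 1) * (c * c⁻¹ - c) := by ring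
          rw [h2, hcc] at h3
          linear_combination h3
        obtain ⟨x, hx⟩ : ∃ c : F, c ∉ ({0, 1} : Finset F) := by
          by_contra hcon
          push Not at hcon
          have : Fintype.card F ≤ ({0, 1} : Finset F).card := by
            rw [← Finset.card_univ]
            exact Finset.card_le_card fun x _ => hcon x
          have h3 : ({0, 1} : Finset F).card ≤ 2 := Finset.card_le_two
          omega
        simp only [Finset.mem_insert, Finset.mem_singleton, not_or] at hx
        have hxq := hquad x hx.1 hx.2
        obtain ⟨c, hc⟩ : ∃ c : F, c ∉ ({0, 1, x, 1 - x} : Finset F) := by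
          by_contra hcon
          push Not at hcon
          have : Fintype.card F ≤ ({0, 1, x, 1 - x} : Finset F).card := by
            rw [← Finset.card_univ]
            exact Finset.card_le_card fun x _ => hcon x
          have h3 : ({0, 1, x, 1 - x} : Finset F).card ≤ 4 := Finset.card_le_four
          omega
        simp only [Finset.mem_insert, Finset.mem_singleton, not_or] at hc
        have hcq := hquad c hc.1 hc.2.1
        have : (c - x) * (c + x - 1) = 0 := by linear_combination hcq - hxq
        rcases mul_eq_zero.1 this with h | h
        · exact hc.2.2.1 (by linear_combination h)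
        · exact hc.2.2.2 (by linear_combination h)
  by_contra hij
  have h1 := main _ v φ h rfl
  have h2 : 1 < (Finset.univ.filter fun l => v l ≠ 0).card :=
    Finset.one_lt_card.2 ⟨i, by simp [hi], j, by simp [hj], hij⟩
  omega

end Cfsg.Agent.Lib.Helper29.Mono
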