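import Mathlib

set_option autoImplicit false

/-! # The monomial group is maximal in `SL_n(q)`: definitions -/

namespace Cfsg.Agent.Lib.Helper29.Mono

open Matrix
open scoped MatrixGroups

variable {ι : Type} [Fintype ι] [DecidableEq ι] {F : Type*} [Field F]

/-- monomial matrix: the non-zero entries lie on the graph of a permutation. -/
def IsMono (g : Matrix ι ι F) : Prop := ∃ σ : Equiv.Perm ι, ∀ i j, g i j ≠ 0 → i = σ j

/-- `G` contains a root element `1 + t E_ij`, `t ≠ 0`, `i ≠ j`. -/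
def HasRoot (G : Subgroup (GL ι F)) : Prop :=
  ∃ g ∈ G, ∃ i j : ι, i ≠ j ∧ ∃ t : F, t ≠ 0 ∧ (g : Matrix ι ι F) = Matrix.transvection i j t

/-- the diagonal matrix with entries `d`. -/
def diagU (d : ι → Fˣ) : GL ι F where
  val := diagonal fun i => (d i : F)
  inv := diagonal fun i => ((d i)⁻¹ : Fˣ)
  val_inv := by simp [diagonal_mul_diagonal]
  inv_val := by simp [diagonal_mul_diagonal]

/-- `diag(ρ, ρ, ρ⁻²)` on the three places `s 0, s 1, s 2`. -/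
def d3 (ρ : Fˣ) (s : Fin 3 → ι) : GL ι F :=
  diagU fun i => if i = s 0 ∨ i = s 1 then ρ else if i = s 2 then (ρ⁻¹) ^ 2 else 1

/-- block upper triangular: `g` maps the coordinate subspace `V_J` into itself. -/
def Tri (J : Finset ι) (g : Matrix ι ι F) : Prop := ∀ i j, j ∈ J → i ∉ J → g i j = 0

/-- the diagonal block of `g` on `J`. -/
def blk (J : Finset ι) (g : Matrix ι ι F) : Matrix {x // x ∈ J} {x // x ∈ J} F :=
  g.submatrix Subtype.val Subtype.val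

/-- the standing hypotheses: `N = M ∩ SL ≤ G ≤ SL`, `G` has no root element. -/
structure Ctx [Fintype F] (G : Subgroup (GL ι F)) : Prop where
  q5 : 5 ≤ Fintype.card F
  n13 : 13 ≤ Fintype.card ι
  hN : ∀ g : GL ι F, IsMono (g : Matrix ι ι F) → (g : Matrix ι ι F).det = 1 → g ∈ G
  hSL : ∀ g ∈ G, (g : Matrix ι ι F).det = 1
  noRoot : ¬ HasRoot G

/-- a one-parameter family of homologies `1 + (c-1) v φ`, `φ(v) = 1`, inside `X`. -/
def IsFam (X : Subgroup (GL ι F)) (v φ : ι → F) : Prop :=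
  φ ⬝ᵥ v = 1 ∧ ∀ c : F, c ≠ 0 → ∃ y ∈ X, (y : Matrix ι ι F) = 1 + (c - 1) • vecMulVec v φ

/-- Theorem A: an overgroup of the full monomial group without root elements is monomial. -/
def ThmA (F : Type*) [Field F] : Prop :=
  ∀ (κ : Type) [Fintype κ] [DecidableEq κ], 3 ≤ Fintype.card κ → ∀ X : Subgroup (GL κ F),
    (∀ g : GL κ F, IsMono (g : Matrix κ κ F) → g ∈ X) → ¬ HasRoot X →
      ∀ g ∈ X, IsMono (g : Matrix κ κ F)

/-- (B1) `G ∩ U_J = 1`. -/
def B1Prop (G : Subgroup (GL ι F)) : Prop :=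
  ∀ (J : Finset ι), ∀ u ∈ G,
    (∀ i j, (u : Matrix ι ι F) i j ≠ (1 : Matrix ι ι F) i j → i ∈ J ∧ j ∉ J) → u = 1

/-- (C1) an element of `G` mapping a proper coordinate subspace to a coordinate subspace is
monomial. -/
def C1Prop (G : Subgroup (GL ι F)) : Prop :=
  ∀ g ∈ G, ∀ J J' : Finset ι, J.Nonempty → J ≠ Finset.univ → J.card = J'.card →
    (∀ i j, j ∈ J → i ∉ J' → (g : Matrix ι ι F) i j = 0) → IsMono (g : Matrix ι ι F)

/-- (B3) -/
def B3Prop (G : Subgroup (GL ι F)) : Prop :=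
  ∀ ρ : Fˣ, ρ ^ 2 ≠ 1 → ∀ s : Fin 3 → ι, Function.Injective s → ∀ x ∈ G,
    IsMono ((x⁻¹ * d3 ρ s * x : GL ι F) : Matrix ι ι F) → IsMono (x : Matrix ι ι F)

/-- (B4) -/
def B4Prop (G : Subgroup (GL ι F)) : Prop :=
  ∀ g ∈ G, ∀ s s' : Fin 3 → ι, Function.Injective s → Function.Injective s' →
    ∃ h ∈ G, (∀ w : ι → F, (∀ k, w (s k) = 0) →
        (∀ k, (((g⁻¹ : GL ι F) : Matrix ι ι F) *ᵥ w) (s' k) = 0) → (h : Matrix ι ι F) *ᵥ w = w) ∧
      IsMono ((h * g : GL ι F) : Matrix ι ι F)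

/-- (P) -/
def PProp (G : Subgroup (GL ι F)) : Prop :=
  ∀ g ∈ G, ∀ (c : ι → F) (s s' : Fin 3 → ι), Function.Injective s → Function.Injective s' →
    (∀ k, c (s' k) = 0) → (∀ k, ((g : Matrix ι ι F) *ᵥ c) (s k) = 0) →
    ∃ σ : Equiv.Perm ι, ∀ i, ((g : Matrix ι ι F) *ᵥ c) (σ i) ≠ 0 ↔ c i ≠ 0

end Cfsg.Agent.Lib.Helper29.Mono
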