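import Mathlib
import Cfsg.Agent.Lib.Helper29.Mono.Defs

set_option autoImplicit false
set_option linter.unusedSectionVars false

namespace Cfsg.Agent.Lib.Helper29.Mono

open Matrix
open scoped MatrixGroups

variable {ι : Type} [Fintype ι] [DecidableEq ι] {F : Type*} [Field F]

/-! ### [API1] monomial matrices -/

lemma mono_mul_perm {g h : Matrix ι ι F} {σ τ : Equiv.Perm ι} (hg : ∀ i j, g i j ≠ 0 → i = σ j)
    (hh : ∀ i j, h i j ≠ 0 → i = τ j) : ∀ i j, (g * h) i j ≠ 0 → i = (σ * τ) j := by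
  intro i j hij
  rw [Matrix.mul_apply] at hij
  obtain ⟨k, -, hk⟩ := Finset.exists_ne_zero_of_sum_ne_zero hij
  have h1 := hg i k (left_ne_zero_of_mul hk)
  have h2 := hh k j (right_ne_zero_of_mul hk)
  rw [h1, h2]
  rfl

lemma mono_inv_mul_entry (g : GL ι F) {σ : Equiv.Perm ι}
    (hg : ∀ i j, (g : Matrix ι ι F) i j ≠ 0 → i = σ j) (i j : ι) :
    ((g⁻¹ : GL ι F) : Matrix ι ι F) i (σ j) * (g : Matrix ι ι F) (σ j) j
      = (1 : Matrix ι ι F) i j := by
  have h1 : ((g⁻¹ : GL ι F) : Matrix ι ι F) * (g : Matrix ι ι F) = 1 := by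
    rw [← Units.val_mul, inv_mul_cancel, Units.val_one]
  rw [← h1, Matrix.mul_apply, Finset.sum_eq_single (σ j)]
  · intro k _ hk
    by_cases h0 : (g : Matrix ι ι F) k j = 0
    · rw [h0, mul_zero]
    · exact absurd (hg k j h0) hk
  · intro h; exact absurd (Finset.mem_univ _) h

lemma mono_entry_ne_zero (g : GL ι F) {σ : Equiv.Perm ι}
    (hg : ∀ i j, (g : Matrix ι ι F) i j ≠ 0 → i = σ j) (j : ι) : (g : Matrix ι ι F) (σ j) j ≠ 0 := by
  intro h0
  have := mono_inv_mul_entry g hg j j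
  rw [h0, mul_zero, Matrix.one_apply_eq] at this
  exact zero_ne_one this

lemma mono_inv_perm (g : GL ι F) {σ : Equiv.Perm ι}
    (hg : ∀ i j, (g : Matrix ι ι F) i j ≠ 0 → i = σ j) :
    ∀ i j, ((g⁻¹ : GL ι F) : Matrix ι ι F) i j ≠ 0 → i = σ⁻¹ j := by
  intro i j hij
  by_contra hne
  have := mono_inv_mul_entry g hg i (σ⁻¹ j)
  have hσ : σ (σ⁻¹ j) = j := by simp
  rw [Matrix.one_apply_ne hne, hσ] at this
  rcases mul_eq_zero.1 this with h | h
  · exact hij h
  · have h2 := mono_entry_ne_zero g hg (σ⁻¹ j)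
    rw [hσ] at h2
    exact h2 h

lemma mono_mulVec {g : Matrix ι ι F} {σ : Equiv.Perm ι} (hg : ∀ i j, g i j ≠ 0 → i = σ j)
    (c : ι → F) (j : ι) : (g *ᵥ c) (σ j) = g (σ j) j * c j := by
  rw [Matrix.mulVec, dotProduct, Finset.sum_eq_single j]
  · intro k _ hk
    by_cases h0 : g (σ j) k = 0
    · rw [h0, zero_mul]
    · exact absurd (σ.injective (hg _ _ h0)).symm hk
  · intro h; exact absurd (Finset.mem_univ _) h

lemma IsMono.one : IsMono (1 : Matrix ι ι F) := by
  refine ⟨1, fun i j h => ?_⟩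
  by_contra hne
  exact h (Matrix.one_apply_ne hne)

lemma IsMono.mul {g h : Matrix ι ι F} (hg : IsMono g) (hh : IsMono h) : IsMono (g * h) := by
  obtain ⟨σ, hσ⟩ := hg
  obtain ⟨τ, hτ⟩ := hh
  exact ⟨σ * τ, mono_mul_perm hσ hτ⟩

lemma IsMono.transpose {g : Matrix ι ι F} (hg : IsMono g) : IsMono gᵀ := by
  obtain ⟨σ, hσ⟩ := hg
  refine ⟨σ⁻¹, fun i j h => ?_⟩
  rw [Matrix.transpose_apply] at h
  rw [hσ j i h]
  simp

lemma IsMono.inv {g : GL ι F} (hg : IsMono (g : Matrix ι ι F)) :
    IsMono ((g⁻¹ : GL ι F) : Matrix ι ι F) := by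
  obtain ⟨σ, hσ⟩ := hg
  exact ⟨σ⁻¹, mono_inv_perm g hσ⟩

/-- cancel a monomial factor on the left -/
lemma IsMono.of_mul_left {ν g : GL ι F} (hν : IsMono (ν : Matrix ι ι F))
    (h : IsMono ((ν * g : GL ι F) : Matrix ι ι F)) : IsMono (g : Matrix ι ι F) := by
  have : g = ν⁻¹ * (ν * g) := by simp
  rw [this, Units.val_mul]
  exact hν.inv.mul h

/-- cancel a monomial factor on the right -/
lemma IsMono.of_mul_right {ν g : GL ι F} (hν : IsMono (ν : Matrix ι ι F))
    (h : IsMono ((g * ν : GL ι F) : Matrix ι ι F)) : IsMono (g : Matrix ι ι F) := by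
  have : g = (g * ν) * ν⁻¹ := by simp
  rw [this, Units.val_mul]
  exact h.mul hν.inv

/-- the full monomial group -/
def monoSub (ι : Type) [Fintype ι] [DecidableEq ι] (F : Type*) [Field F] : Subgroup (GL ι F) where
  carrier := {g | IsMono (g : Matrix ι ι F)}
  mul_mem' := fun {a b} ha hb => by
    change IsMono ((a * b : GL ι F) : Matrix ι ι F)
    rw [Units.val_mul]
    exact IsMono.mul ha hb
  one_mem' := IsMono.one
  inv_mem' := fun {a} ha => IsMono.inv ha

lemma mem_monoSub (g : GL ι F) : g ∈ monoSub ι F ↔ IsMono (g : Matrix ι ι F) := Iff.rfl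

/-- every column of an invertible matrix has a non-zero entry -/
lemma exists_col_ne_zero (g : GL ι F) (j : ι) : ∃ i, (g : Matrix ι ι F) i j ≠ 0 := by
  by_contra hcon
  push Not at hcon
  have h1 : ((g⁻¹ : GL ι F) : Matrix ι ι F) * (g : Matrix ι ι F) = 1 := by
    rw [← Units.val_mul, inv_mul_cancel, Units.val_one]
  have h2 := congrFun (congrFun h1 j) j
  rw [Matrix.mul_apply, Matrix.one_apply_eq, Finset.sum_eq_zero] at h2
  · exact zero_ne_one h2
  · intro k _
    rw [hcon k, mul_zero]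

/-- every row of an invertible matrix has a non-zero entry -/
lemma exists_row_ne_zero (g : GL ι F) (i : ι) : ∃ j, (g : Matrix ι ι F) i j ≠ 0 := by
  by_contra hcon
  push Not at hcon
  have h1 : (g : Matrix ι ι F) * ((g⁻¹ : GL ι F) : Matrix ι ι F) = 1 := by
    rw [← Units.val_mul, mul_inv_cancel, Units.val_one]
  have h2 := congrFun (congrFun h1 i) i
  rw [Matrix.mul_apply, Matrix.one_apply_eq, Finset.sum_eq_zero] at h2
  · exact zero_ne_one h2
  · intro k _
    rw [hcon k, zero_mul]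

/-- an invertible matrix with at most one non-zero entry in each row is monomial -/
lemma mono_of_rows (g : GL ι F)
    (h : ∀ k i j, (g : Matrix ι ι F) k i ≠ 0 → (g : Matrix ι ι F) k j ≠ 0 → i = j) :
    IsMono (g : Matrix ι ι F) := by
  choose f hf using exists_row_ne_zero g
  -- `f : row ↦ column` is surjective, hence bijective
  have hsurj : Function.Surjective f := by
    intro j
    obtain ⟨i, hi⟩ := exists_col_ne_zero g j
    exact ⟨i, h i _ _ (hf i) hi⟩
  have hbij : Function.Bijective f := (Finite.surjective_iff_bijective).1 hsurj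
  refine ⟨(Equiv.ofBijective f hbij).symm, fun i j hij => ?_⟩
  have : f i = j := h i _ _ (hf i) hij
  rw [← this]
  exact ((Equiv.ofBijective f hbij).symm_apply_apply i).symm

/-- an invertible matrix with at most one non-zero entry in each column is monomial -/
lemma mono_of_cols (g : GL ι F)
    (h : ∀ k i j, (g : Matrix ι ι F) i k ≠ 0 → (g : Matrix ι ι F) j k ≠ 0 → i = j) :
    IsMono (g : Matrix ι ι F) := by
  choose f hf using exists_col_ne_zero g
  have hsurj : Function.Surjective f := by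
    intro i
    obtain ⟨j, hj⟩ := exists_row_ne_zero g i
    exact ⟨j, h j _ _ (hf j) hj⟩
  have hbij : Function.Bijective f := (Finite.surjective_iff_bijective).1 hsurj
  refine ⟨Equiv.ofBijective f hbij, fun i j hij => ?_⟩
  exact h j _ _ hij (hf j)

end Cfsg.Agent.Lib.Helper29.Mono
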