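import Mathlib
import Cfsg.Agent.Lib.Helper29.Mono.Api1

set_option autoImplicit false
set_option linter.unusedSectionVars false

namespace Cfsg.Agent.Lib.Helper29.Mono

open Matrix
open scoped MatrixGroups

variable {ι : Type} [Fintype ι] [DecidableEq ι] {F : Type*} [Field F]

/-! ### [API2] diagonal, permutation and root elements -/

lemma coe_diagU (d : ι → Fˣ) : (diagU d : Matrix ι ι F) = diagonal fun i => (d i : F) := rfl

lemma coe_diagU_inv (d : ι → Fˣ) :
    (((diagU d)⁻¹ : GL ι F) : Matrix ι ι F) = diagonal fun i => ((d i)⁻¹ : F) := by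
  change (diagonal fun i => (((d i)⁻¹ : Fˣ) : F)) = _
  simp

lemma det_diagU (d : ι → Fˣ) : (diagU d : Matrix ι ι F).det = ∏ i, (d i : F) := by
  rw [coe_diagU, Matrix.det_diagonal]

lemma isMono_diagU (d : ι → Fˣ) : IsMono (diagU d : Matrix ι ι F) := by
  refine ⟨1, fun i j h => ?_⟩
  by_contra hne
  rw [coe_diagU] at h
  exact h (Matrix.diagonal_apply_ne _ hne)

lemma conj_diagU_apply (d : ι → Fˣ) (g : GL ι F) (i j : ι) :
    ((diagU d * g * (diagU d)⁻¹ : GL ι F) : Matrix ι ι F) i j
      = (d i : F) * (g : Matrix ι ι F) i j * ((d j : F))⁻¹ := by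
  rw [Units.val_mul, Units.val_mul, coe_diagU, coe_diagU_inv, Matrix.mul_diagonal,
    Matrix.diagonal_mul]

lemma diagU_mulVec (d : ι → Fˣ) (w : ι → F) (i : ι) :
    ((diagU d : Matrix ι ι F) *ᵥ w) i = (d i : F) * w i := by
  rw [coe_diagU, Matrix.mulVec_diagonal]

/-- `diag(c at k)` -/
def hU (k : ι) (c : Fˣ) : GL ι F := diagU (Function.update 1 k c)

lemma coe_hU (k : ι) (c : Fˣ) :
    (hU k c : Matrix ι ι F) = 1 + ((c : F) - 1) • Matrix.single k k (1 : F) := by
  ext i j
  rw [hU, coe_diagU]
  by_cases hij : i = j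
  · subst hij
    by_cases hik : i = k
    · subst hik
      simp
    · simp [Function.update_of_ne hik, Ne.symm hik]
  · simp only [Matrix.diagonal_apply_ne _ hij, Matrix.add_apply, Matrix.one_apply_ne hij,
      Matrix.smul_apply, Matrix.single_apply, smul_eq_mul, zero_add]
    by_cases hik : k = i
    · subst hik
      simp [hij]
    · simp [hik]

/-- `diag(c at k, c⁻¹ at l)` -/
def dU (k l : ι) (c : Fˣ) : GL ι F := diagU (Function.update (Function.update 1 l c⁻¹) k c)

lemma det_dU {k l : ι} (hkl : k ≠ l) (c : Fˣ) : (dU k l c : Matrix ι ι F).det = 1 := by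
  rw [dU, det_diagU]
  rw [← Finset.mul_prod_erase Finset.univ _ (Finset.mem_univ k),
    ← Finset.mul_prod_erase _ _ (Finset.mem_erase.2 ⟨hkl.symm, Finset.mem_univ l⟩)]
  rw [Finset.prod_eq_one]
  · simp [Function.update_of_ne hkl.symm]
  · intro i hi
    simp only [Finset.mem_erase, Finset.mem_univ, and_true] at hi
    simp [Function.update_of_ne hi.1, Function.update_of_ne hi.2]

lemma det_d3 (ρ : Fˣ) {s : Fin 3 → ι} (hs : Function.Injective s) :
    (d3 ρ s : Matrix ι ι F).det = 1 := by
  have h01 : s 0 ≠ s 1 := fun h => by simpa using hs h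
  have h02 : s 0 ≠ s 2 := fun h => by simpa using hs h
  have h12 : s 1 ≠ s 2 := fun h => by simpa using hs h
  rw [d3, det_diagU]
  rw [← Finset.mul_prod_erase Finset.univ _ (Finset.mem_univ (s 0)),
    ← Finset.mul_prod_erase _ _ (Finset.mem_erase.2 ⟨h01.symm, Finset.mem_univ (s 1)⟩),
    ← Finset.mul_prod_erase _ _ (Finset.mem_erase.2 ⟨h12.symm,
      Finset.mem_erase.2 ⟨h02.symm, Finset.mem_univ (s 2)⟩⟩)]
  rw [Finset.prod_eq_one]
  · simp [h02.symm, h12.symm]
    have : (ρ : F) ≠ 0 := ρ.ne_zero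
    field_simp
  · intro i hi
    simp only [Finset.mem_erase, Finset.mem_univ, and_true] at hi
    simp [hi.1, hi.2.1, hi.2.2]

lemma d3_mulVec_eq (ρ : Fˣ) (s : Fin 3 → ι) (w : ι → F) (hw : ∀ k, w (s k) = 0) :
    (d3 ρ s : Matrix ι ι F) *ᵥ w = w := by
  ext i
  rw [d3, diagU_mulVec]
  by_cases h0 : i = s 0
  · rw [h0, hw]; simp
  · by_cases h1 : i = s 1
    · rw [h1, hw]; simp
    · by_cases h2 : i = s 2
      · rw [h2, hw]; simp
      · simp [h0, h1, h2]

/-- the permutation matrix of `π` (`e_j ↦ e_{π j}`) -/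
def permU (π : Equiv.Perm ι) : GL ι F where
  val := Matrix.of fun i j => if i = π j then 1 else 0
  inv := Matrix.of fun i j => if π i = j then 1 else 0
  val_inv := by
    ext i j
    rw [Matrix.mul_apply, Finset.sum_eq_single (π.symm i)]
    · by_cases hij : i = j
      · subst hij; simp
      · simp [hij]
    · intro k _ hk
      have : i ≠ π k := fun h => hk (by rw [h]; simp)
      simp [this]
    · intro h; exact absurd (Finset.mem_univ _) h
  inv_val := by
    ext i j
    rw [Matrix.mul_apply, Finset.sum_eq_single (π i)]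
    · by_cases hij : i = j
      · subst hij; simp
      · simp [hij]
    · intro k _ hk
      simp [Ne.symm hk]
    · intro h; exact absurd (Finset.mem_univ _) h

lemma permU_apply (π : Equiv.Perm ι) (i j : ι) :
    ((permU π : GL ι F) : Matrix ι ι F) i j = if i = π j then 1 else 0 := rfl

lemma permU_inv_apply (π : Equiv.Perm ι) (i j : ι) :
    (((permU π)⁻¹ : GL ι F) : Matrix ι ι F) i j = if π i = j then 1 else 0 := rfl

lemma isMono_permU (π : Equiv.Perm ι) : IsMono ((permU π : GL ι F) : Matrix ι ι F) := by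
  refine ⟨π, fun i j h => ?_⟩
  by_contra hne
  rw [permU_apply, if_neg hne] at h
  exact h rfl

lemma det_hU (k : ι) (c : Fˣ) : (hU k c : Matrix ι ι F).det = c := by
  rw [hU, det_diagU, ← Finset.mul_prod_erase Finset.univ _ (Finset.mem_univ k),
    Finset.prod_eq_one]
  · simp
  · intro i hi
    simp only [Finset.mem_erase, Finset.mem_univ, and_true] at hi
    simp [Function.update_of_ne hi]

/-- a monomial matrix of determinant one over a given permutation -/
lemma exists_mono_perm (π : Equiv.Perm ι) :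
    ∃ ν : GL ι F, (ν : Matrix ι ι F).det = 1 ∧ ∀ i j, (ν : Matrix ι ι F) i j ≠ 0 ↔ i = π j := by
  rcases isEmpty_or_nonempty ι with hE | ⟨⟨k⟩⟩
  · exact ⟨1, by simp, fun i => (hE.false i).elim⟩
  · have hdet : ((permU π : GL ι F) : Matrix ι ι F).det ≠ 0 := by
      have := (Matrix.isUnit_iff_isUnit_det _).1 (permU π : GL ι F).isUnit
      exact this.ne_zero
    refine ⟨hU k (Units.mk0 _ hdet)⁻¹ * permU π, ?_, ?_⟩
    · rw [Units.val_mul, Matrix.det_mul, det_hU]
      simp [hdet]
    · intro i j
      rw [Units.val_mul, hU, coe_diagU, Matrix.diagonal_mul, permU_apply]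
      by_cases hij : i = π j
      · simp [hij]
      · simp [hij]

/-- the root element `1 + t E_ij` -/
def rootU {i j : ι} (hij : i ≠ j) (t : F) : GL ι F where
  val := Matrix.transvection i j t
  inv := Matrix.transvection i j (-t)
  val_inv := by rw [Matrix.transvection_mul_transvection_same _ _ hij]; simp
  inv_val := by rw [Matrix.transvection_mul_transvection_same _ _ hij]; simp

lemma coe_rootU {i j : ι} (hij : i ≠ j) (t : F) :
    (rootU hij t : Matrix ι ι F) = Matrix.transvection i j t := rfl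

end Cfsg.Agent.Lib.Helper29.Mono
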