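import Mathlib
import Cfsg.Agent.Lib.Helper29.Mono.Api2

set_option autoImplicit false
set_option linter.unusedSectionVars false

namespace Cfsg.Agent.Lib.Helper29.Mono

open Matrix
open scoped MatrixGroups

variable {ι : Type} [Fintype ι] [DecidableEq ι] {F : Type*} [Field F]

/-! ### [API3] the transposed group -/

/-- the transpose of an invertible matrix -/
def tU (g : GL ι F) : GL ι F where
  val := (g : Matrix ι ι F)ᵀ
  inv := ((g⁻¹ : GL ι F) : Matrix ι ι F)ᵀ
  val_inv := by rw [← Matrix.transpose_mul, ← Units.val_mul, inv_mul_cancel]; simp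
  inv_val := by rw [← Matrix.transpose_mul, ← Units.val_mul, mul_inv_cancel]; simp

lemma coe_tU (g : GL ι F) : (tU g : Matrix ι ι F) = (g : Matrix ι ι F)ᵀ := rfl

lemma tU_inv (g : GL ι F) : (tU g)⁻¹ = tU g⁻¹ := by
  apply Units.ext
  rfl

lemma tU_tU (g : GL ι F) : tU (tU g) = g := by
  apply Units.ext
  simp [coe_tU]

/-- the group of the transposes of the elements of `G` -/
def tSub (G : Subgroup (GL ι F)) : Subgroup (GL ι F) where
  carrier := {x | ∃ g ∈ G, (x : Matrix ι ι F) = (g : Matrix ι ι F)ᵀ}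
  mul_mem' := by
    rintro a b ⟨g, hg, hag⟩ ⟨h, hh, hbh⟩
    refine ⟨h * g, G.mul_mem hh hg, ?_⟩
    rw [Units.val_mul, Units.val_mul, Matrix.transpose_mul, hag, hbh]
  one_mem' := ⟨1, G.one_mem, by simp⟩
  inv_mem' := by
    rintro a ⟨g, hg, hag⟩
    refine ⟨g⁻¹, G.inv_mem hg, ?_⟩
    have : a = tU g := Units.ext hag
    rw [this, tU_inv]
    rfl

lemma mem_tSub (G : Subgroup (GL ι F)) (x : GL ι F) :
    x ∈ tSub G ↔ ∃ g ∈ G, (x : Matrix ι ι F) = (g : Matrix ι ι F)ᵀ := Iff.rfl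

/-- every element of `G` has its transpose in `tSub G` -/
lemma exists_transpose_mem (G : Subgroup (GL ι F)) {g : GL ι F} (hg : g ∈ G) :
    ∃ x ∈ tSub G, (x : Matrix ι ι F) = (g : Matrix ι ι F)ᵀ :=
  ⟨tU g, ⟨g, hg, rfl⟩, rfl⟩

lemma hasRoot_tSub {G : Subgroup (GL ι F)} (h : HasRoot (tSub G)) : HasRoot G := by
  obtain ⟨x, ⟨g, hg, hxg⟩, i, j, hij, t, ht, hx⟩ := h
  refine ⟨g, hg, j, i, hij.symm, t, ht, ?_⟩
  have : (g : Matrix ι ι F) = (x : Matrix ι ι F)ᵀ := by rw [hxg, Matrix.transpose_transpose]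
  rw [this, hx, Matrix.transvection, Matrix.transvection, Matrix.transpose_add,
    Matrix.transpose_one, Matrix.transpose_single]

lemma Ctx.tSub [Fintype F] {G : Subgroup (GL ι F)} (h : Ctx G) : Ctx (tSub G) where
  q5 := h.q5
  n13 := h.n13
  hN := by
    intro g hg hdet
    refine ⟨tU g, h.hN _ hg.transpose (by rw [coe_tU, Matrix.det_transpose]; exact hdet), ?_⟩
    rw [coe_tU, Matrix.transpose_transpose]
  hSL := by
    rintro x ⟨g, hg, hxg⟩
    rw [hxg, Matrix.det_transpose]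
    exact h.hSL g hg
  noRoot := fun hr => h.noRoot (hasRoot_tSub hr)

end Cfsg.Agent.Lib.Helper29.Mono
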