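import Mathlib
import Cfsg.Agent.Lib.Helper29.Mono.Api

set_option autoImplicit false
set_option linter.unusedSectionVars false

/-! # [B1] `G ∩ U_J = 1` -/

namespace Cfsg.Agent.Lib.Helper29.Mono

open Matrix
open scoped MatrixGroups

variable {ι : Type} [Fintype ι] [DecidableEq ι] {F : Type*} [Field F]

lemma exists_ne_zero_one [Fintype F] (hq : 5 ≤ Fintype.card F) : ∃ c : Fˣ, c ≠ 1 := by
  classical
  obtain ⟨c, hc⟩ : ∃ c : F, c ∉ ({0, 1} : Finset F) := by
    by_contra hcon
    push Not at hcon
    have : Fintype.card F ≤ ({0, 1} : Finset F).card := by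
      rw [← Finset.card_univ]
      exact Finset.card_le_card fun x _ => hcon x
    have h3 : ({0, 1} : Finset F).card ≤ 2 := Finset.card_le_two
    omega
  simp only [Finset.mem_insert, Finset.mem_singleton, not_or] at hc
  exact ⟨Units.mk0 c hc.1, fun h => hc.2 (by simpa using congrArg Units.val h)⟩

/-- an index outside a set of at most four indices -/
lemma exists_notMem_four (hn : 5 ≤ Fintype.card ι) (a b c d : ι) :
    ∃ k, k ≠ a ∧ k ≠ b ∧ k ≠ c ∧ k ≠ d := by
  obtain ⟨k, hk⟩ : ∃ k : ι, k ∉ ({a, b, c, d} : Finset ι) := by
    by_contra hcon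
    push Not at hcon
    have : Fintype.card ι ≤ ({a, b, c, d} : Finset ι).card := by
      rw [← Finset.card_univ]
      exact Finset.card_le_card fun x _ => hcon x
    have h3 : ({a, b, c, d} : Finset ι).card ≤ 4 := Finset.card_le_four
    omega
  simp only [Finset.mem_insert, Finset.mem_singleton, not_or] at hk
  exact ⟨k, hk.1, hk.2.1, hk.2.2.1, hk.2.2.2⟩

lemma dU_mem [Fintype F] {G : Subgroup (GL ι F)} (hG : Ctx G) {k l : ι} (hkl : k ≠ l) (c : Fˣ) :
    dU k l c ∈ G := hG.hN _ (isMono_diagU _) (det_dU hkl c)

/-- a diagonal element of `G`: `c` at `k`, `1` at the (at most four) prescribed places -/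
lemma exists_diag [Fintype F] {G : Subgroup (GL ι F)} (hG : Ctx G) (c : Fˣ) (k a b e : ι)
    (ha : a ≠ k) (hb : b ≠ k) (he : e ≠ k) :
    ∃ D : ι → Fˣ, diagU D ∈ G ∧ D k = c ∧ D a = 1 ∧ D b = 1 ∧ D e = 1 := by
  obtain ⟨l, hlk, hla, hlb, hle⟩ := exists_notMem_four (by have := hG.n13; omega) k a b e
  refine ⟨_, dU_mem hG hlk.symm c, by simp, ?_, ?_, ?_⟩
  · rw [Function.update_of_ne ha, Function.update_of_ne hla.symm]; rfl
  · rw [Function.update_of_ne hb, Function.update_of_ne hlb.symm]; rfl
  · rw [Function.update_of_ne he, Function.update_of_ne hle.symm]; rfl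

/-- [B1] -/
theorem b1 [Fintype F] {G : Subgroup (GL ι F)} (hG : Ctx G) : B1Prop G := by
  classical
  intro J
  have main : ∀ N : ℕ, ∀ u ∈ G,
      (∀ i j, (u : Matrix ι ι F) i j ≠ (1 : Matrix ι ι F) i j → i ∈ J ∧ j ∉ J) →
      (Finset.univ.filter fun p : ι × ι =>
        (u : Matrix ι ι F) p.1 p.2 ≠ (1 : Matrix ι ι F) p.1 p.2).card = N → u = 1 := by
    intro N
    induction N using Nat.strong_induction_on with
    | _ N IH =>
      intro u hu hsupp hN
      by_contra hu1
      -- some entry differs
      obtain ⟨a, b, hab⟩ : ∃ a b, (u : Matrix ι ι F) a b ≠ (1 : Matrix ι ι F) a b := by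
        by_contra hcon
        push Not at hcon
        apply hu1
        apply Units.ext
        ext i j
        exact hcon i j
      have haJ := (hsupp a b hab).1
      have hbJ := (hsupp a b hab).2
      have hab' : a ≠ b := fun h => hbJ (h ▸ haJ)
      by_cases hone : ∀ i j, (u : Matrix ι ι F) i j ≠ (1 : Matrix ι ι F) i j → i = a ∧ j = b
      · -- root element
        apply hG.noRoot
        refine ⟨u, hu, a, b, hab', (u : Matrix ι ι F) a b, ?_, ?_⟩
        · rwa [Matrix.one_apply_ne hab'] at hab
        · ext i j
          rw [Matrix.transvection, Matrix.add_apply, Matrix.single_apply]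
          by_cases h : a = i ∧ b = j
          · obtain ⟨rfl, rfl⟩ := h
            simp [Matrix.one_apply_ne hab']
          · rw [if_neg h, add_zero]
            by_contra hne
            have := hone i j hne
            exact h ⟨this.1.symm, this.2.symm⟩
      · push Not at hone
        obtain ⟨a', b', hab2, hne⟩ := hone
        have ha'J := (hsupp a' b' hab2).1
        have hb'J := (hsupp a' b' hab2).2
        obtain ⟨c, hc⟩ := exists_ne_zero_one (F := F) hG.q5
        obtain ⟨D, hD, hDab, hDab'⟩ : ∃ D : ι → Fˣ, diagU D ∈ G ∧ D a = D b ∧ D a' ≠ D b' := by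
          by_cases haa : a' = a
          · have hbb : b' ≠ b := fun h => hne haa h
            obtain ⟨D, hD, h1, h2, h3, -⟩ := exists_diag hG c b' a b a
              (fun h => hb'J (h ▸ haJ)) hbb.symm (fun h => hb'J (h ▸ haJ))
            exact ⟨D, hD, by rw [h2, h3], by rw [haa, h2, h1]; exact hc.symm⟩
          · obtain ⟨D, hD, h1, h2, h3, h4⟩ := exists_diag hG c a' a b b'
              (Ne.symm haa) (fun h => hbJ (h ▸ ha'J)) (fun h => hb'J (h ▸ ha'J))
            exact ⟨D, hD, by rw [h2, h3], by rw [h1, h4]; exact hc⟩
        -- the new element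
        obtain ⟨Y, hY⟩ : ∃ Y : Matrix ι ι F, Y = (u : Matrix ι ι F) - 1 := ⟨_, rfl⟩
        obtain ⟨Y', hY'⟩ : ∃ Y' : Matrix ι ι F,
          Y' = Matrix.of fun i j => ((D i : F) * (D j : F)⁻¹ - 1) * Y i j := ⟨_, rfl⟩
        have hYs : ∀ i j, Y i j ≠ 0 → i ∈ J ∧ j ∉ J := by
          intro i j h
          apply hsupp
          intro h0
          apply h
          rw [hY, Matrix.sub_apply, h0, sub_self]
        have hYY : Y * Y' = 0 := by
          ext i j
          rw [Matrix.mul_apply]
          refine Finset.sum_eq_zero fun k _ => ?_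
          by_cases hk : k ∈ J
          · have : Y i k = 0 := by
              by_contra h
              exact (hYs i k h).2 hk
            rw [this, zero_mul]
          · have : Y k j = 0 := by
              by_contra h
              exact hk (hYs k j h).1
            rw [hY', Matrix.of_apply, this, mul_zero, mul_zero]
        have hu' : (u : Matrix ι ι F) = 1 + Y := by rw [hY]; abel
        have key : (u : Matrix ι ι F) * (1 + Y')
            = ((diagU D * u * (diagU D)⁻¹ : GL ι F) : Matrix ι ι F) := by
          ext i j
          rw [conj_diagU_apply, hu', Matrix.add_mul, Matrix.mul_add, Matrix.mul_add, hYY,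
            Matrix.one_mul, Matrix.one_mul, Matrix.mul_one]
          simp only [Matrix.add_apply, hY', Matrix.of_apply, Matrix.zero_apply]
          by_cases hij : i = j
          · subst hij
            have : (D i : F) ≠ 0 := (D i).ne_zero
            simp only [Matrix.one_apply_eq]
            field_simp
            ring
          · simp only [Matrix.one_apply_ne hij]
            ring
        have hw : ((u⁻¹ * (diagU D * u * (diagU D)⁻¹) : GL ι F) : Matrix ι ι F) = 1 + Y' := by
          rw [Units.val_mul, ← key, ← Matrix.mul_assoc, ← Units.val_mul, inv_mul_cancel,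
            Units.val_one, Matrix.one_mul]
        have hwG : u⁻¹ * (diagU D * u * (diagU D)⁻¹) ∈ G :=
          G.mul_mem (G.inv_mem hu) (G.mul_mem (G.mul_mem hD hu) (G.inv_mem hD))
        have hwne : ∀ i j, ((u⁻¹ * (diagU D * u * (diagU D)⁻¹) : GL ι F) : Matrix ι ι F) i j
            ≠ (1 : Matrix ι ι F) i j ↔ ((D i : F) * (D j : F)⁻¹ - 1) * Y i j ≠ 0 := by
          intro i j
          rw [hw, Matrix.add_apply, hY', Matrix.of_apply]
          simp
        have hYne : ∀ i j, Y i j ≠ 0 ↔ (u : Matrix ι ι F) i j ≠ (1 : Matrix ι ι F) i j := by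
          intro i j
          rw [hY, Matrix.sub_apply, sub_ne_zero]
        have hw1 := IH _ ?_ _ hwG ?_ rfl
        · -- contradiction at `(a', b')`
          have h1 := (hwne a' b').2 (mul_ne_zero ?_ ((hYne a' b').2 hab2))
          · rw [hw1] at h1
            exact h1 rfl
          · intro h0
            apply hDab'
            have h2 : (D b' : F) ≠ 0 := (D b').ne_zero
            have h3 : (D a' : F) = D b' := by
              field_simp at h0
              linear_combination h0
            exact Units.ext h3
        · rw [← hN]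
          apply Finset.card_lt_card
          rw [Finset.ssubset_iff_of_subset]
          · refine ⟨(a, b), by simpa using hab, ?_⟩
            simp only [Finset.mem_filter, Finset.mem_univ, true_and]
            rw [hwne, hDab]
            have : (D b : F) ≠ 0 := (D b).ne_zero
            simp [this]
          · intro p hp
            simp only [Finset.mem_filter, Finset.mem_univ, true_and] at hp ⊢
            rw [hwne] at hp
            exact (hYne _ _).1 (right_ne_zero_of_mul hp)
        · intro i j hij
          rw [hwne] at hij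
          exact hYs i j (right_ne_zero_of_mul hij)
  intro u hu hsupp
  exact main _ u hu hsupp rfl

end Cfsg.Agent.Lib.Helper29.Mono
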