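import Mathlib
import Cfsg.Agent.Lib.Helper29.Mono.Api

set_option autoImplicit false

/-! # [END] the endgame -/

namespace Cfsg.Agent.Lib.Helper29.Mono

open Matrix
open scoped MatrixGroups

variable {ι : Type} [Fintype ι] [DecidableEq ι] {F : Type*} [Field F]

lemma exists_inj_of_three_le (S : Finset ι) (h : 3 ≤ S.card) :
    ∃ s : Fin 3 → ι, Function.Injective s ∧ ∀ k, s k ∈ S := by
  obtain ⟨S', hS', hc⟩ := Finset.exists_subset_card_eq h
  let e := (S'.equivFinOfCardEq hc).symm
  exact ⟨fun k => (e k : ι), fun a b hab => e.injective (Subtype.ext hab), fun k => hS' (e k).2⟩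

open Classical in
lemma card_supp_eq_of_P {G : Subgroup (GL ι F)} (hP : PProp G) (g : GL ι F) (hg : g ∈ G)
    (c : ι → F) (h1 : 3 ≤ (Finset.univ.filter fun i => c i = 0).card)
    (h2 : 3 ≤ (Finset.univ.filter fun i => ((g : Matrix ι ι F) *ᵥ c) i = 0).card) :
    (Finset.univ.filter fun i => ((g : Matrix ι ι F) *ᵥ c) i ≠ 0).card
      = (Finset.univ.filter fun i => c i ≠ 0).card := by
  obtain ⟨s', hs', hs'0⟩ := exists_inj_of_three_le _ h1
  obtain ⟨s, hs, hs0⟩ := exists_inj_of_three_le _ h2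
  obtain ⟨σ, hσ⟩ := hP g hg c s s' hs hs' (fun k => by simpa using hs'0 k)
    (fun k => by simpa using hs0 k)
  symm
  refine Finset.card_bij (fun i _ => σ i) ?_ ?_ ?_
  · intro i hi
    simp only [Finset.mem_filter, Finset.mem_univ, true_and] at hi ⊢
    exact (hσ i).2 hi
  · intro a _ b _ hab
    exact σ.injective hab
  · intro b hb
    simp only [Finset.mem_filter, Finset.mem_univ, true_and] at hb
    refine ⟨σ.symm b, ?_, by simp⟩
    simp only [Finset.mem_filter, Finset.mem_univ, true_and]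
    apply (hσ _).1
    simpa using hb

/-- [END] -/
theorem endgame [Fintype F] {G : Subgroup (GL ι F)} (hG : Ctx G) (hC1 : C1Prop G)
    (hB4 : B4Prop G) (hP : PProp G)
    (hLA : ∀ (T : Matrix ι ι F) (J : Finset ι) (L : Matrix (Fin 3) ι F),
      (∀ c : ι → F, (∀ i ∉ J, c i = 0) → L *ᵥ c = 0 → T *ᵥ c = 0) →
      ∃ R ⊆ J, R.card ≤ 3 ∧ ∀ c : ι → F, (∀ i ∉ J, c i = 0) →
        ∃ c' : ι → F, (∀ i ∉ R, c' i = 0) ∧ T *ᵥ c' = T *ᵥ c) :
    ∀ g ∈ G, IsMono (g : Matrix ι ι F) := by
  classical
  intro g hg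
  by_contra hgM
  have hn := hG.n13
  rw [← Finset.card_univ] at hn
  obtain ⟨s, hs, -⟩ := exists_inj_of_three_le (Finset.univ : Finset ι) (by omega)
  obtain ⟨h, hhG, hfix, hmono⟩ := hB4 g hg s s hs hs
  obtain ⟨g1, hg1⟩ : ∃ g1 : GL ι F, g1 = h⁻¹ := ⟨_, rfl⟩
  have hg1G : g1 ∈ G := hg1 ▸ G.inv_mem hhG
  have hg1M : ¬ IsMono (g1 : Matrix ι ι F) := by
    intro hm
    apply hgM
    have : g = g1 * (h * g) := by simp [hg1]
    rw [this, Units.val_mul]
    exact hm.mul hmono
  have hfix1 : ∀ w : ι → F, (∀ k, w (s k) = 0) →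
      (∀ k, (((g⁻¹ : GL ι F) : Matrix ι ι F) *ᵥ w) (s k) = 0) → (g1 : Matrix ι ι F) *ᵥ w = w := by
    intro w h1 h2
    have h3 := hfix w h1 h2
    have h4 : (g1 : Matrix ι ι F) *ᵥ ((h : Matrix ι ι F) *ᵥ w) = w := by
      rw [Matrix.mulVec_mulVec, ← Units.val_mul, hg1, inv_mul_cancel, Units.val_one,
        Matrix.one_mulVec]
    rwa [h3] at h4
  obtain ⟨J, hJ⟩ : ∃ J : Finset ι, J = Finset.univ \ Finset.image s Finset.univ := ⟨_, rfl⟩
  have hJmem : ∀ i, i ∈ J ↔ ∀ k, i ≠ s k := by
    intro i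
    simp [hJ, eq_comm]
  have hJcard : J.card + 3 = (Finset.univ : Finset ι).card := by
    rw [hJ, Finset.card_sdiff_of_subset (Finset.subset_univ _),
      Finset.card_image_of_injective _ hs]
    simp only [Finset.card_univ, Fintype.card_fin]
    rw [Finset.card_univ] at hn
    omega
  obtain ⟨T, hT⟩ : ∃ T : Matrix ι ι F, T = (g1 : Matrix ι ι F) - 1 := ⟨_, rfl⟩
  have hg1T : ∀ c : ι → F, (g1 : Matrix ι ι F) *ᵥ c = c + T *ᵥ c := by
    intro c
    rw [hT, Matrix.sub_mulVec, Matrix.one_mulVec]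
    abel
  obtain ⟨R, hRJ, hR3, hRspan⟩ := hLA T J
    (Matrix.of fun k j => ((g⁻¹ : GL ι F) : Matrix ι ι F) (s k) j) (by
      intro c hc hL
      have h1 : ∀ k, c (s k) = 0 := fun k => hc _ (fun hmem => (hJmem _).1 hmem k rfl)
      have h2 : ∀ k, (((g⁻¹ : GL ι F) : Matrix ι ι F) *ᵥ c) (s k) = 0 := by
        intro k
        have := congrFun hL k
        simpa [Matrix.mulVec, dotProduct] using this
      have h3 := hfix1 c h1 h2
      rw [hg1T] at h3
      simpa using h3)
  -- (a)
  have hJne : J.Nonempty := by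
    rw [← Finset.card_pos]; omega
  have hJuniv : J ≠ Finset.univ := by
    intro h; rw [h] at hJcard; omega
  obtain ⟨j0, hj0, i0, hi0⟩ : ∃ j0 ∈ J, ∃ i0, T i0 j0 ≠ 0 := by
    by_contra hcon
    push Not at hcon
    apply hg1M
    refine hC1 g1 hg1G J J hJne hJuniv rfl ?_
    intro i j hj hi
    have := hcon j hj i
    have hij : i ≠ j := fun h => hi (by rw [h]; exact hj)
    rw [hT, Matrix.sub_apply, Matrix.one_apply_ne hij, sub_zero] at this
    exact this
  obtain ⟨z, hz⟩ : ∃ z : ι → F, z = fun i => T i j0 := ⟨_, rfl⟩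
  have hTe : T *ᵥ (Pi.single j0 1) = z := by
    rw [hz]; ext i; simp
  -- (b)
  have hcol : (Finset.univ.filter fun i => (g1 : Matrix ι ι F) i j0 = 0).card ≤ 2 := by
    by_contra hcon
    push Not at hcon
    have hge : (g1 : Matrix ι ι F) *ᵥ (Pi.single j0 1) = fun i => (g1 : Matrix ι ι F) i j0 := by
      ext i; simp
    have hz1 : (Finset.univ.filter fun i => (Pi.single j0 (1 : F) : ι → F) i = 0)
        = Finset.univ.erase j0 := by
      ext i
      by_cases hi : i = j0
      · subst hi; simp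
      · simp [hi]
    have hs1 : (Finset.univ.filter fun i => (Pi.single j0 (1 : F) : ι → F) i ≠ 0) = {j0} := by
      ext i
      by_cases hi : i = j0
      · subst hi; simp
      · simp [hi]
    have := card_supp_eq_of_P hP g1 hg1G (Pi.single j0 1) (by
      rw [hz1, Finset.card_erase_of_mem (Finset.mem_univ _)]; omega) (by
      rw [hge]; exact hcon)
    rw [hs1, Finset.card_singleton, hge, Finset.card_eq_one] at this
    obtain ⟨k, hk⟩ := this
    apply hg1M
    refine hC1 g1 hg1G {j0} {k} (Finset.singleton_nonempty _) ?_ (by simp) ?_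
    · intro h
      have := congrArg Finset.card h
      rw [Finset.card_singleton] at this
      omega
    · intro i j hj hi
      rw [Finset.mem_singleton] at hj hi
      subst hj
      by_contra hne
      have : i ∈ (Finset.univ.filter fun i => (g1 : Matrix ι ι F) i j ≠ 0) := by simp [hne]
      rw [hk, Finset.mem_singleton] at this
      exact hi this
  have hzz : (Finset.univ.filter fun i => z i = 0).card ≤ 3 := by
    have hsub : (Finset.univ.filter fun i => z i = 0)
        ⊆ insert j0 (Finset.univ.filter fun i => (g1 : Matrix ι ι F) i j0 = 0) := by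
      intro i hi
      simp only [Finset.mem_filter, Finset.mem_univ, true_and] at hi
      by_cases hij : i = j0
      · simp [hij]
      · rw [hz, hT] at hi
        simp only [Matrix.sub_apply, Matrix.one_apply_ne hij, sub_zero] at hi
        simp [hi]
    have := Finset.card_le_card hsub
    have h2 := Finset.card_insert_le j0 (Finset.univ.filter fun i => (g1 : Matrix ι ι F) i j0 = 0)
    omega
  -- (c)
  obtain ⟨Z0, hZ0⟩ : ∃ Z0 : Finset ι, Z0 = Finset.univ.filter fun i => i ∉ R ∧ z i = 0 := ⟨_, rfl⟩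
  have hZ0card : Z0.card ≤ 3 := by
    refine le_trans (Finset.card_le_card ?_) hzz
    intro i hi
    rw [hZ0] at hi
    simp only [Finset.mem_filter, Finset.mem_univ, true_and] at hi ⊢
    exact hi.2
  obtain ⟨Av, hAv⟩ : ∃ Av : Finset ι, Av = J.filter fun i => i ∉ R ∧ z i ≠ 0 := ⟨_, rfl⟩
  have hAvcard : 3 ≤ Av.card := by
    have hsub : J ⊆ Av ∪ (R ∪ Finset.univ.filter fun i => z i = 0) := by
      intro i hi
      by_cases h1 : i ∈ R
      · simp [h1]
      · by_cases h2 : z i = 0
        · simp [h2]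
        · simp [hAv, hi, h1, h2]
    have h1 := Finset.card_le_card hsub
    have h2 := Finset.card_union_le Av (R ∪ Finset.univ.filter fun i => z i = 0)
    have h3 := Finset.card_union_le R (Finset.univ.filter fun i => z i = 0)
    omega
  obtain ⟨Z, hZAv, hZcard⟩ := Finset.exists_subset_card_eq (s := Av) (n := 3 - Z0.card) (by omega)
  have hZprop : ∀ i ∈ Z, i ∈ J ∧ i ∉ R ∧ z i ≠ 0 := by
    intro i hi
    have := hZAv hi
    rw [hAv] at this
    simpa using this
  obtain ⟨c0, hc0⟩ : ∃ c0 : ι → F, c0 = fun i => if i ∈ Z then - z i else 0 := ⟨_, rfl⟩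
  obtain ⟨cR, hcR, hTcR⟩ := hRspan (Pi.single j0 1 - c0) (by
    intro i hi
    have h1 : i ≠ j0 := fun h => hi (h ▸ hj0)
    have h2 : i ∉ Z := fun h => hi (hZprop i h).1
    simp [hc0, h1, h2])
  have hTc : T *ᵥ (c0 + cR) = z := by
    rw [Matrix.mulVec_add, hTcR, Matrix.mulVec_sub, hTe]
    abel
  have hy : (g1 : Matrix ι ι F) *ᵥ (c0 + cR) = c0 + cR + z := by
    rw [hg1T, hTc]
  have hdisj : Disjoint Z Z0 := by
    rw [Finset.disjoint_left]
    intro i hi hi0
    rw [hZ0] at hi0
    simp only [Finset.mem_filter, Finset.mem_univ, true_and] at hi0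
    exact (hZprop i hi).2.2 hi0.2
  have hZZ0 : (Z ∪ Z0).card = 3 := by
    rw [Finset.card_union_of_disjoint hdisj, hZcard]; omega
  have hyz : Z ∪ Z0 ⊆ Finset.univ.filter fun i => ((g1 : Matrix ι ι F) *ᵥ (c0 + cR)) i = 0 := by
    intro i hi
    simp only [Finset.mem_filter, Finset.mem_univ, true_and]
    rw [hy]
    rcases Finset.mem_union.1 hi with hi | hi
    · have := hZprop i hi
      simp [hc0, hi, hcR i this.2.1]
    · have hiZ : i ∉ Z := fun h => Finset.disjoint_left.1 hdisj h hi
      rw [hZ0] at hi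
      simp only [Finset.mem_filter, Finset.mem_univ, true_and] at hi
      simp [hc0, hiZ, hcR i hi.1, hi.2]
  have hcsupp : (Finset.univ.filter fun i => (c0 + cR) i ≠ 0) ⊆ Z ∪ R := by
    intro i hi
    simp only [Finset.mem_filter, Finset.mem_univ, true_and] at hi
    by_contra hcon
    rw [Finset.mem_union, not_or] at hcon
    apply hi
    simp [hc0, hcon.1, hcR i hcon.2]
  have hcsc : (Finset.univ.filter fun i => (c0 + cR) i ≠ 0).card ≤ 3 - Z0.card + R.card := by
    have := Finset.card_le_card hcsupp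
    have h2 := Finset.card_union_le Z R
    omega
  have hsplit : ∀ c : ι → F, (Finset.univ.filter fun i => c i = 0).card
      + (Finset.univ.filter fun i => c i ≠ 0).card = (Finset.univ : Finset ι).card := by
    intro c
    exact Finset.card_filter_add_card_filter_not (s := Finset.univ) (fun i => c i = 0)
  have hkey := card_supp_eq_of_P hP g1 hg1G (c0 + cR) (by
    have := hsplit (c0 + cR)
    omega) (by
    have := Finset.card_le_card hyz
    omega)
  have hysupp : Finset.univ \ (R ∪ (Z ∪ Z0))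
      ⊆ Finset.univ.filter fun i => ((g1 : Matrix ι ι F) *ᵥ (c0 + cR)) i ≠ 0 := by
    intro i hi
    simp only [Finset.mem_sdiff, Finset.mem_univ, true_and, Finset.mem_union, not_or] at hi
    simp only [Finset.mem_filter, Finset.mem_univ, true_and]
    rw [hy]
    have hzi : z i ≠ 0 := by
      intro h0
      apply hi.2.2
      rw [hZ0]
      simp [hi.1, h0]
    simp [hc0, hi.2.1, hcR i hi.1, hzi]
  have h1 := Finset.card_le_card hysupp
  rw [Finset.card_sdiff_of_subset (Finset.subset_univ _)] at h1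
  have h2 := Finset.card_union_le R (Z ∪ Z0)
  omega

end Cfsg.Agent.Lib.Helper29.Mono
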