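import Mathlib
import Cfsg.Agent.Lib.Helper29.Mono.Api

set_option autoImplicit false
set_option linter.unusedSectionVars false

/-! # [RES] restriction of block triangular matrices to the diagonal block -/

namespace Cfsg.Agent.Lib.Helper29.Mono

open Matrix
open scoped MatrixGroups

variable {ι : Type} [Fintype ι] [DecidableEq ι] {F : Type*} [Field F]

lemma Tri.mul {J : Finset ι} {g h : Matrix ι ι F} (hg : Tri J g) (hh : Tri J h) :
    Tri J (g * h) := by
  intro i j hj hi
  rw [Matrix.mul_apply]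
  refine Finset.sum_eq_zero fun k _ => ?_
  by_cases hk : k ∈ J
  · rw [hg i k hk hi, zero_mul]
  · rw [hh k j hj hk, mul_zero]

lemma Tri.one (J : Finset ι) : Tri J (1 : Matrix ι ι F) := by
  intro i j hj hi
  exact Matrix.one_apply_ne (fun h => hi (by rw [h]; exact hj))

lemma tri_iff_blockTriangular (J : Finset ι) (g : Matrix ι ι F) :
    Tri J g ↔ Matrix.BlockTriangular g (fun i => if i ∈ J then (0 : ℕ) else 1) := by
  constructor
  · intro h i j hij
    by_cases hj : j ∈ J
    · by_cases hi : i ∈ J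
      · simp [hi, hj] at hij
      · exact h i j hj hi
    · by_cases hi : i ∈ J <;> simp [hi, hj] at hij
  · intro h i j hj hi
    exact h (by simp [hi, hj])

lemma Tri.inv {J : Finset ι} {g : GL ι F} (hg : Tri J (g : Matrix ι ι F)) :
    Tri J ((g⁻¹ : GL ι F) : Matrix ι ι F) := by
  rw [tri_iff_blockTriangular] at hg ⊢
  rw [Matrix.coe_units_inv]
  have : Invertible (g : Matrix ι ι F) := g.invertible
  exact Matrix.blockTriangular_inv_of_blockTriangular hg

/-- [RES] -/
def triSub (J : Finset ι) : Subgroup (GL ι F) where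
  carrier := {g | Tri J (g : Matrix ι ι F)}
  mul_mem' := fun {a b} ha hb => by
    change Tri J ((a * b : GL ι F) : Matrix ι ι F)
    rw [Units.val_mul]
    exact Tri.mul ha hb
  one_mem' := Tri.one J
  inv_mem' := fun {a} ha => Tri.inv ha

lemma mem_triSub (J : Finset ι) (g : GL ι F) : g ∈ triSub J ↔ Tri J (g : Matrix ι ι F) := Iff.rfl

lemma blk_mul {J : Finset ι} (g : Matrix ι ι F) {h : Matrix ι ι F} (hh : Tri J h) :
    blk J (g * h) = blk J g * blk J h := by
  ext i j
  simp only [blk, Matrix.submatrix_apply, Matrix.mul_apply]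
  rw [Finset.sum_coe_sort J (fun k => g i k * h k j)]
  symm
  refine Finset.sum_subset (Finset.subset_univ J) fun k _ hk => ?_
  rw [hh k j j.2 hk, mul_zero]

lemma blk_one (J : Finset ι) : blk J (1 : Matrix ι ι F) = 1 := by
  ext i j
  simp only [blk, Matrix.submatrix_apply, Matrix.one_apply, Subtype.ext_iff]

/-- the complementary block is multiplicative, too -/
lemma blk_compl_mul {J : Finset ι} {g : Matrix ι ι F} (hg : Tri J g) (h : Matrix ι ι F) :
    blk Jᶜ (g * h) = blk Jᶜ g * blk Jᶜ h := by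
  ext i j
  simp only [blk, Matrix.submatrix_apply, Matrix.mul_apply]
  rw [Finset.sum_coe_sort Jᶜ (fun k => g i k * h k j)]
  symm
  refine Finset.sum_subset (Finset.subset_univ Jᶜ) fun k _ hk => ?_
  rw [hg i k (by simpa using hk) (Finset.mem_compl.1 i.2), zero_mul]

/-- [RES] -/
noncomputable def resHom (J : Finset ι) : (triSub J : Subgroup (GL ι F)) →* GL {x // x ∈ J} F :=
  MonoidHom.toHomUnits
    { toFun := fun g => blk J ((g : GL ι F) : Matrix ι ι F)
      map_one' := blk_one J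
      map_mul' := fun a b => by
        change blk J (((a : GL ι F) * (b : GL ι F) : GL ι F) : Matrix ι ι F) = _
        rw [Units.val_mul]
        exact blk_mul _ b.2 }

/-- [RES] -/
lemma coe_resHom (J : Finset ι) (g : (triSub J : Subgroup (GL ι F))) :
    (resHom J g : Matrix {x // x ∈ J} {x // x ∈ J} F) = blk J ((g : GL ι F) : Matrix ι ι F) := rfl

/-- the group induced by `G ∩ P_J` on `V_J` -/
noncomputable def resSub (G : Subgroup (GL ι F)) (J : Finset ι) : Subgroup (GL {x // x ∈ J} F) :=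
  (G.subgroupOf (triSub J)).map (resHom J)

/-- [RES] -/
lemma mem_resSub (G : Subgroup (GL ι F)) (J : Finset ι) (A : GL {x // x ∈ J} F) :
    A ∈ resSub G J ↔ ∃ g ∈ G, Tri J (g : Matrix ι ι F) ∧
      blk J (g : Matrix ι ι F) = (A : Matrix {x // x ∈ J} {x // x ∈ J} F) := by
  constructor
  · rintro ⟨g, hg, rfl⟩
    exact ⟨g, hg, g.2, rfl⟩
  · rintro ⟨g, hg, hT, hA⟩
    exact ⟨⟨g, hT⟩, hg, Units.ext hA⟩

/-- extend a matrix on `J` by the identity -/
def ext1 (J : Finset ι) (A : Matrix {x // x ∈ J} {x // x ∈ J} F) : Matrix ι ι F :=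
  fun i j => if h : i ∈ J ∧ j ∈ J then A ⟨i, h.1⟩ ⟨j, h.2⟩ else if i = j then 1 else 0

lemma tri_ext1 (J : Finset ι) (A : Matrix {x // x ∈ J} {x // x ∈ J} F) : Tri J (ext1 J A) := by
  intro i j hj hi
  have hij : i ≠ j := fun h => hi (by rw [h]; exact hj)
  simp [ext1, hi, hij]

lemma blk_ext1 (J : Finset ι) (A : Matrix {x // x ∈ J} {x // x ∈ J} F) :
    blk J (ext1 J A) = A := by
  ext i j
  simp [blk, ext1, i.2, j.2]

lemma det_ext1 (J : Finset ι) (A : Matrix {x // x ∈ J} {x // x ∈ J} F) :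
    (ext1 J A).det = A.det := by
  rw [Matrix.twoBlockTriangular_det (ext1 J A) (fun i => i ∈ J)
    (fun i hi j hj => tri_ext1 J A i j hj hi)]
  have h1 : Matrix.toSquareBlockProp (ext1 J A) (fun i => i ∈ J) = A := blk_ext1 J A
  have h2 : Matrix.toSquareBlockProp (ext1 J A) (fun i => ¬ i ∈ J) = 1 := by
    ext i j
    change ext1 J A i j = _
    simp only [ext1, Matrix.one_apply, Subtype.ext_iff]
    rw [dif_neg (fun h => i.2 h.1)]
  rw [h1, h2, Matrix.det_one, mul_one]
  exact congrArg (fun inst => @Matrix.det _ _ inst _ _ A) (Subsingleton.elim _ _)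

lemma mono_ext1 (J : Finset ι) {A : Matrix {x // x ∈ J} {x // x ∈ J} F} (hA : IsMono A) :
    IsMono (ext1 J A) := by
  obtain ⟨σ, hσ⟩ := hA
  refine ⟨Equiv.Perm.ofSubtype σ, fun i j hij => ?_⟩
  by_cases h : i ∈ J ∧ j ∈ J
  · simp only [ext1, dif_pos h] at hij
    have := hσ _ _ hij
    rw [Equiv.Perm.ofSubtype_apply_of_mem σ h.2, ← this]
  · simp only [ext1, dif_neg h] at hij
    have hij' : i = j := by
      by_contra hne
      simp [hne] at hij
    subst hij'
    have hi : i ∉ J := fun hi => h ⟨hi, hi⟩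
    rw [Equiv.Perm.ofSubtype_apply_of_not_mem σ hi]

/-- [RES] -/
theorem mono_mem_resSub [Fintype F] {G : Subgroup (GL ι F)} (hG : Ctx G) (J : Finset ι)
    (hJ : J ≠ Finset.univ) (A : GL {x // x ∈ J} F)
    (hA : IsMono (A : Matrix {x // x ∈ J} {x // x ∈ J} F)) : A ∈ resSub G J := by
  obtain ⟨k, hk⟩ : ∃ k, k ∉ J := by
    by_contra hcon
    push Not at hcon
    exact hJ (Finset.eq_univ_iff_forall.2 hcon)
  have hdet : (A : Matrix {x // x ∈ J} {x // x ∈ J} F).det ≠ 0 :=
    ((Matrix.isUnit_iff_isUnit_det _).1 A.isUnit).ne_zero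
  have hdet' : (ext1 J (A : Matrix {x // x ∈ J} {x // x ∈ J} F)).det ≠ 0 := by
    rw [det_ext1]; exact hdet
  let g0 : GL ι F := Matrix.GeneralLinearGroup.mkOfDetNeZero _ hdet'
  have hg0 : (g0 : Matrix ι ι F) = ext1 J (A : Matrix {x // x ∈ J} {x // x ∈ J} F) := rfl
  rw [mem_resSub]
  refine ⟨hU k (Units.mk0 _ hdet)⁻¹ * g0, hG.hN _ ?_ ?_, ?_, ?_⟩
  · rw [Units.val_mul]
    exact (isMono_diagU _).mul (hg0 ▸ mono_ext1 J hA)
  · rw [Units.val_mul, Matrix.det_mul, det_hU, hg0, det_ext1]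
    simp [hdet]
  · rw [Units.val_mul]
    refine Tri.mul ?_ (hg0 ▸ tri_ext1 J _)
    intro i j hj hi
    rw [hU, coe_diagU]
    exact Matrix.diagonal_apply_ne _ (fun h => hi (by rw [h]; exact hj))
  · ext i j
    have hik : (i : ι) ≠ k := fun h => hk (h ▸ i.2)
    simp only [blk, Matrix.submatrix_apply]
    rw [Units.val_mul, hU, coe_diagU, Matrix.diagonal_mul, hg0, Function.update_of_ne hik]
    have := congrFun (congrFun (blk_ext1 J (A : Matrix {x // x ∈ J} {x // x ∈ J} F)) i) j
    simp only [blk, Matrix.submatrix_apply] at this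
    simp [this]

end Cfsg.Agent.Lib.Helper29.Mono
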