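import Mathlib
import Cfsg.Agent.Lib.Helper29.Mono.Res

set_option autoImplicit false
set_option linter.unusedSectionVars false

/-! # [GLUE] -/

namespace Cfsg.Agent.Lib.Helper29.Mono

open Matrix
open scoped MatrixGroups

variable {ι : Type} [Fintype ι] [DecidableEq ι] {F : Type*} [Field F]

/-- [GLUE] -/
theorem glue [Fintype F] {G : Subgroup (GL ι F)} (hG : Ctx G) (hB1 : B1Prop G) (J : Finset ι)
    (g : GL ι F) (hg : g ∈ G) (hT : Tri J (g : Matrix ι ι F))
    (hA : IsMono (blk J (g : Matrix ι ι F))) (hB : IsMono (blk Jᶜ (g : Matrix ι ι F))) :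
    IsMono (g : Matrix ι ι F) := by
  obtain ⟨σA, hσA⟩ := hA
  obtain ⟨σB, hσB⟩ := hB
  obtain ⟨N, hN⟩ : ∃ N : Matrix ι ι F,
    N = Matrix.of fun i j => if (i ∈ J ↔ j ∈ J) then (g : Matrix ι ι F) i j else 0 := ⟨_, rfl⟩
  obtain ⟨σ, hσ⟩ : ∃ σ : Equiv.Perm ι, σ = Equiv.Perm.ofSubtype σA * Equiv.Perm.ofSubtype σB :=
    ⟨_, rfl⟩
  have hσJ : ∀ j (hj : j ∈ J), σ j = σA ⟨j, hj⟩ := by
    intro j hj
    rw [hσ, Equiv.Perm.mul_apply,
      Equiv.Perm.ofSubtype_apply_of_not_mem σB (by simpa using hj),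
      Equiv.Perm.ofSubtype_apply_of_mem σA hj]
  have hσJc : ∀ j (hj : j ∈ Jᶜ), σ j = σB ⟨j, hj⟩ := by
    intro j hj
    rw [hσ, Equiv.Perm.mul_apply, Equiv.Perm.ofSubtype_apply_of_mem σB hj,
      Equiv.Perm.ofSubtype_apply_of_not_mem σA (Finset.mem_compl.1 (σB ⟨j, hj⟩).2)]
  have hNσ : ∀ i j, N i j ≠ 0 → i = σ j := by
    intro i j hij
    rw [hN, Matrix.of_apply] at hij
    by_cases hiff : (i ∈ J ↔ j ∈ J)
    · rw [if_pos hiff] at hij
      by_cases hj : j ∈ J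
      · have hi : i ∈ J := hiff.2 hj
        have := hσA ⟨i, hi⟩ ⟨j, hj⟩ hij
        rw [hσJ j hj, ← this]
      · have hi : i ∉ J := fun h => hj (hiff.1 h)
        have := hσB ⟨i, Finset.mem_compl.2 hi⟩ ⟨j, Finset.mem_compl.2 hj⟩ hij
        rw [hσJc j (Finset.mem_compl.2 hj), ← this]
    · rw [if_neg hiff] at hij
      exact absurd rfl hij
  have hNT : Tri J N := by
    intro i j hj hi
    rw [hN, Matrix.of_apply, if_neg (fun h => hi (h.2 hj))]
  have hdet : N.det = 1 := by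
    rw [← hG.hSL g hg, Matrix.twoBlockTriangular_det N (fun i => i ∈ J)
      (fun i hi j hj => hNT i j hj hi), Matrix.twoBlockTriangular_det (g : Matrix ι ι F)
      (fun i => i ∈ J) (fun i hi j hj => hT i j hj hi)]
    congr 2
    · ext i j
      change N i j = (g : Matrix ι ι F) i j
      rw [hN, Matrix.of_apply, if_pos (iff_of_true i.2 j.2)]
    · ext i j
      change N i j = (g : Matrix ι ι F) i j
      rw [hN, Matrix.of_apply, if_pos (iff_of_false i.2 j.2)]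
  obtain ⟨ν, hν⟩ : ∃ ν : GL ι F, (ν : Matrix ι ι F) = N :=
    ⟨Matrix.GeneralLinearGroup.mkOfDetNeZero N (by rw [hdet]; exact one_ne_zero), rfl⟩
  have hνM : ∀ i j, (ν : Matrix ι ι F) i j ≠ 0 → i = σ j := by rw [hν]; exact hNσ
  have hνG : ν ∈ G := hG.hN ν ⟨σ, hνM⟩ (by rw [hν]; exact hdet)
  have hCs : ∀ i j, ((g : Matrix ι ι F) - N) i j ≠ 0 → i ∈ J ∧ j ∉ J := by
    intro i j hij
    rw [Matrix.sub_apply, hN, Matrix.of_apply] at hij
    by_cases hiff : (i ∈ J ↔ j ∈ J)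
    · rw [if_pos hiff, sub_self] at hij
      exact absurd rfl hij
    · rw [if_neg hiff, sub_zero] at hij
      by_cases hi : i ∈ J
      · exact ⟨hi, fun hj => hiff (iff_of_true hi hj)⟩
      · by_cases hj : j ∈ J
        · exact absurd (hT i j hj hi) hij
        · exact absurd (iff_of_false hi hj) hiff
  have hu : ((g * ν⁻¹ : GL ι F) : Matrix ι ι F)
      = 1 + ((g : Matrix ι ι F) - N) * ((ν⁻¹ : GL ι F) : Matrix ι ι F) := by
    rw [Matrix.sub_mul, ← hν, ← Units.val_mul ν, mul_inv_cancel, Units.val_one, Units.val_mul]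
    abel
  have hu1 := hB1 J _ (G.mul_mem hg (G.inv_mem hνG)) (by
    intro i j hij
    rw [hu, Matrix.add_apply] at hij
    have h0 : (((g : Matrix ι ι F) - N) * ((ν⁻¹ : GL ι F) : Matrix ι ι F)) i j ≠ 0 := by
      intro h0
      apply hij
      rw [h0, add_zero]
    rw [Matrix.mul_apply] at h0
    obtain ⟨k, -, hk⟩ := Finset.exists_ne_zero_of_sum_ne_zero h0
    have h1 := hCs i k (left_ne_zero_of_mul hk)
    have h2 := mono_inv_perm ν hνM k j (right_ne_zero_of_mul hk)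
    refine ⟨h1.1, ?_⟩
    have h3 : j = σ k := by rw [h2]; simp
    rw [h3, hσJc k (Finset.mem_compl.2 h1.2)]
    exact Finset.mem_compl.1 (σB _).2)
  have : g = ν := by
    have := congrArg (fun x => x * ν) hu1
    simpa using this
  rw [this]
  exact ⟨σ, hνM⟩

end Cfsg.Agent.Lib.Helper29.Mono
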