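import Mathlib
import Cfsg.Agent.Lib.Helper29.Mono.Res
import Cfsg.Agent.Lib.Helper29.Mono.B1

set_option autoImplicit false
set_option linter.unusedSectionVars false

/-! # [LIFT] a root element of the induced group lifts to a root element -/

namespace Cfsg.Agent.Lib.Helper29.Mono

open Matrix
open scoped MatrixGroups

variable {ι : Type} [Fintype ι] [DecidableEq ι] {F : Type*} [Field F]

lemma exists_sq_ne_one [Fintype F] (hq : 5 ≤ Fintype.card F) : ∃ c : Fˣ, (c : F) ^ 2 ≠ 1 := by
  classical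
  obtain ⟨c, hc⟩ : ∃ c : F, c ∉ ({0, 1, -1} : Finset F) := by
    by_contra hcon
    push Not at hcon
    have : Fintype.card F ≤ ({0, 1, -1} : Finset F).card := by
      rw [← Finset.card_univ]
      exact Finset.card_le_card fun x _ => hcon x
    have h3 : ({0, 1, -1} : Finset F).card ≤ 3 := Finset.card_le_three
    omega
  simp only [Finset.mem_insert, Finset.mem_singleton, not_or] at hc
  refine ⟨Units.mk0 c hc.1, fun h => ?_⟩
  have : (c - 1) * (c + 1) = 0 := by
    simp only [Units.val_mk0] at h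
    linear_combination h
  rcases mul_eq_zero.1 this with h | h
  · exact hc.2.1 (by linear_combination h)
  · exact hc.2.2 (by linear_combination h)

lemma tri_diagU (J : Finset ι) (D : ι → Fˣ) : Tri J (diagU D : Matrix ι ι F) := by
  intro i j hj hi
  rw [coe_diagU]
  exact Matrix.diagonal_apply_ne _ (fun h => hi (by rw [h]; exact hj))

/-- the second half of the argument: an element which is `1 + t E_ab` up to the corner block -/
lemma root_of_corner [Fintype F] {G : Subgroup (GL ι F)} (hG : Ctx G) (hB1 : B1Prop G)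
    (J : Finset ι) (g2 : GL ι F) (hg2 : g2 ∈ G) (a b : ι) (ha : a ∈ J) (hb : b ∈ J) (hab : a ≠ b)
    (t : F)
    (H1 : ∀ i, i ∉ J → ∀ j, (g2 : Matrix ι ι F) i j = (1 : Matrix ι ι F) i j)
    (H2 : ∀ i ∈ J, ∀ j ∈ J, (g2 : Matrix ι ι F) i j = Matrix.transvection a b t i j) :
    (g2 : Matrix ι ι F) = Matrix.transvection a b t := by
  have hT : Tri J (g2 : Matrix ι ι F) := by
    intro i j hj hi
    rw [H1 i hi, Matrix.one_apply_ne (fun h => hi (by rw [h]; exact hj))]
  have hcorner : ∀ k ∈ J, ∀ l, l ∉ J → (g2 : Matrix ι ι F) k l = 0 := by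
    intro k hk l hl
    obtain ⟨c, hc⟩ := exists_ne_zero_one (F := F) hG.q5
    obtain ⟨D, hD, hDl, hDa, hDb, hDk⟩ := exists_diag hG c l a b k
      (fun h => hl (h ▸ ha)) (fun h => hl (h ▸ hb)) (fun h => hl (h ▸ hk))
    obtain ⟨Y, hY⟩ : ∃ Y : Matrix ι ι F,
      Y = Matrix.of fun i j => ((D i : F) * (D j : F)⁻¹ - 1) * (g2 : Matrix ι ι F) i j := ⟨_, rfl⟩
    have hYs : ∀ i j, Y i j ≠ 0 → i ∈ J ∧ j ∉ J := by
      intro i j h
      rw [hY, Matrix.of_apply] at h
      have hne : i ≠ j := by
        rintro rfl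
        apply h
        have : (D i : F) ≠ 0 := (D i).ne_zero
        simp [this]
      by_cases hi : i ∈ J
      · refine ⟨hi, fun hj => ?_⟩
        apply h
        rw [H2 i hi j hj, Matrix.transvection, Matrix.add_apply, Matrix.one_apply_ne hne,
          Matrix.single_apply]
        by_cases hh : a = i ∧ b = j
        · obtain ⟨rfl, rfl⟩ := hh
          simp [hDa, hDb]
        · simp [hh]
      · exfalso
        apply h
        rw [H1 i hi, Matrix.one_apply_ne hne, mul_zero]
    have hconj : ((diagU D * g2 * (diagU D)⁻¹ : GL ι F) : Matrix ι ι F)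
        = (g2 : Matrix ι ι F) + Y := by
      ext i j
      rw [conj_diagU_apply, Matrix.add_apply, hY, Matrix.of_apply]
      ring
    have hu : ((g2⁻¹ * (diagU D * g2 * (diagU D)⁻¹) : GL ι F) : Matrix ι ι F)
        = 1 + ((g2⁻¹ : GL ι F) : Matrix ι ι F) * Y := by
      rw [Units.val_mul, hconj, Matrix.mul_add, ← Units.val_mul, inv_mul_cancel, Units.val_one]
    have hu1 := hB1 J _ (G.mul_mem (G.inv_mem hg2) (G.mul_mem (G.mul_mem hD hg2) (G.inv_mem hD)))
      (by
        intro i j hij
        rw [hu, Matrix.add_apply] at hij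
        have h0 : (((g2⁻¹ : GL ι F) : Matrix ι ι F) * Y) i j ≠ 0 := by
          intro h0
          apply hij
          rw [h0, add_zero]
        rw [Matrix.mul_apply] at h0
        obtain ⟨m, -, hm⟩ := Finset.exists_ne_zero_of_sum_ne_zero h0
        have h1 := hYs m j (right_ne_zero_of_mul hm)
        refine ⟨?_, h1.2⟩
        by_contra hi
        exact (left_ne_zero_of_mul hm) (Tri.inv hT i m h1.1 hi))
    have h2 : diagU D * g2 * (diagU D)⁻¹ = g2 := by
      have := congrArg (fun x => g2 * x) hu1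
      simpa using this
    have h3 := congrArg (fun x : GL ι F => (x : Matrix ι ι F) k l) h2
    simp only [conj_diagU_apply, hDk, hDl, Units.val_one, one_mul] at h3
    by_contra hne
    apply hc
    have hc0 : (c : F) ≠ 0 := c.ne_zero
    have h4 : (c : F)⁻¹ = 1 := by
      have : (g2 : Matrix ι ι F) k l * ((c : F)⁻¹ - 1) = 0 := by linear_combination h3
      rcases mul_eq_zero.1 this with h | h
      · exact absurd h hne
      · linear_combination h
    rw [inv_eq_one] at h4
    exact Units.ext h4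
  ext i j
  by_cases hi : i ∈ J
  · by_cases hj : j ∈ J
    · exact H2 i hi j hj
    · have hij : i ≠ j := fun h => hj (h ▸ hi)
      have hh : ¬ (a = i ∧ b = j) := fun h => hj (h.2 ▸ hb)
      rw [hcorner i hi j hj, Matrix.transvection, Matrix.add_apply,
        Matrix.one_apply_ne hij, Matrix.single_apply, if_neg hh, add_zero]
  · have hh : ¬ (a = i ∧ b = j) := fun h => hi (h.1 ▸ ha)
    rw [H1 i hi, Matrix.transvection, Matrix.add_apply, Matrix.single_apply, if_neg hh, add_zero]

/-- [LIFT] -/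
theorem no_root_resSub [Fintype F] {G : Subgroup (GL ι F)} (hG : Ctx G) (hB1 : B1Prop G)
    (J : Finset ι) : ¬ HasRoot (resSub G J) := by
  rintro ⟨A, hA, a, b, hab, t, ht, hAt⟩
  rw [mem_resSub] at hA
  obtain ⟨g1, hg1, hT1, hblk⟩ := hA
  rw [hAt] at hblk
  have hab' : (a : ι) ≠ (b : ι) := fun h => hab (Subtype.ext h)
  obtain ⟨c, hc⟩ := exists_sq_ne_one (F := F) hG.q5
  obtain ⟨D, hD⟩ : ∃ D : ι → Fˣ,
    D = Function.update (Function.update (1 : ι → Fˣ) (b : ι) c⁻¹) (a : ι) c := ⟨_, rfl⟩
  have hDG : diagU D ∈ G := by rw [hD]; exact dU_mem hG hab' c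
  have hDa : D a = c := by rw [hD]; simp
  have hDb : D b = c⁻¹ := by rw [hD, Function.update_of_ne hab'.symm]; simp
  have hDo : ∀ i, i ∉ J → D i = 1 := by
    intro i hi
    have h1 : i ≠ (a : ι) := fun h => hi (h ▸ a.2)
    have h2 : i ≠ (b : ι) := fun h => hi (h ▸ b.2)
    rw [hD, Function.update_of_ne h1, Function.update_of_ne h2]
    rfl
  have hT1' := Tri.inv hT1
  -- the conjugate `x = d g1⁻¹ d⁻¹`
  obtain ⟨x, hx⟩ : ∃ x : GL ι F, x = diagU D * g1⁻¹ * (diagU D)⁻¹ := ⟨_, rfl⟩
  have hxG : x ∈ G := by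
    rw [hx]; exact G.mul_mem (G.mul_mem hDG (G.inv_mem hg1)) (G.inv_mem hDG)
  have hxe : ∀ i j, (x : Matrix ι ι F) i j
      = (D i : F) * ((g1⁻¹ : GL ι F) : Matrix ι ι F) i j * (D j : F)⁻¹ := by
    intro i j
    rw [hx, conj_diagU_apply]
  have hTx : Tri J (x : Matrix ι ι F) := by
    intro i j hj hi
    rw [hxe, hT1' i j hj hi]; simp
  -- blocks of `g1⁻¹`
  have hinvA : blk J ((g1⁻¹ : GL ι F) : Matrix ι ι F) = Matrix.transvection a b (-t) := by
    have h1 : blk J (g1 : Matrix ι ι F) * blk J ((g1⁻¹ : GL ι F) : Matrix ι ι F) = 1 := by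
      rw [← blk_mul _ hT1', ← Units.val_mul, mul_inv_cancel, Units.val_one, blk_one]
    rw [hblk] at h1
    have h2 : Matrix.transvection a b (-t) * (Matrix.transvection a b t *
        blk J ((g1⁻¹ : GL ι F) : Matrix ι ι F)) = Matrix.transvection a b (-t) := by
      rw [h1, Matrix.mul_one]
    rw [← Matrix.mul_assoc, Matrix.transvection_mul_transvection_same _ _ hab] at h2
    simpa using h2
  have hxA : blk J (x : Matrix ι ι F) = Matrix.transvection a b (-(t * (c : F) ^ 2)) := by
    ext i j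
    have h1 := congrFun (congrFun hinvA i) j
    simp only [blk, Matrix.submatrix_apply] at h1 ⊢
    rw [hxe, h1, Matrix.transvection, Matrix.transvection, Matrix.add_apply, Matrix.add_apply,
      Matrix.single_apply, Matrix.single_apply]
    by_cases hh : a = i ∧ b = j
    · obtain ⟨rfl, rfl⟩ := hh
      rw [Matrix.one_apply_ne hab, hDa, hDb]
      simp
      ring
    · rw [if_neg hh, add_zero, if_neg hh, add_zero]
      by_cases hij : i = j
      · subst hij
        have : (D i : F) ≠ 0 := (D i).ne_zero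
        simp [this]
      · simp [Matrix.one_apply_ne hij]
  have hg2A : blk J ((g1 * x : GL ι F) : Matrix ι ι F)
      = Matrix.transvection a b (t * (1 - (c : F) ^ 2)) := by
    rw [Units.val_mul, blk_mul _ hTx, hblk, hxA, Matrix.transvection_mul_transvection_same _ _ hab]
    congr 1
    ring
  have hg2B : ∀ i, i ∉ J → ∀ j, ((g1 * x : GL ι F) : Matrix ι ι F) i j
      = (1 : Matrix ι ι F) i j := by
    intro i hi j
    have h1 : (g1 : Matrix ι ι F) * ((g1⁻¹ : GL ι F) : Matrix ι ι F) = 1 := by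
      rw [← Units.val_mul, mul_inv_cancel, Units.val_one]
    rw [Units.val_mul, Matrix.mul_apply]
    have h2 : ∀ k, (g1 : Matrix ι ι F) i k * (x : Matrix ι ι F) k j
        = ((g1 : Matrix ι ι F) i k * ((g1⁻¹ : GL ι F) : Matrix ι ι F) k j) * (D j : F)⁻¹ := by
      intro k
      by_cases hk : k ∈ J
      · rw [hT1 i k hk hi]; simp
      · rw [hxe, hDo k hk]; simp [mul_assoc]
    simp only [h2]
    rw [← Finset.sum_mul, ← Matrix.mul_apply, h1]
    by_cases hij : i = j
    · subst hij
      rw [hDo i hi]; simp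
    · rw [Matrix.one_apply_ne hij, zero_mul]
  apply hG.noRoot
  refine ⟨g1 * x, G.mul_mem hg1 hxG, a, b, hab', t * (1 - (c : F) ^ 2), ?_, ?_⟩
  · refine mul_ne_zero ht ?_
    intro h0
    exact hc (by linear_combination -h0)
  · refine root_of_corner hG hB1 J _ (G.mul_mem hg1 hxG) a b a.2 b.2 hab' _ hg2B ?_
    intro i hi j hj
    have h1 := congrFun (congrFun hg2A ⟨i, hi⟩) ⟨j, hj⟩
    simp only [blk, Matrix.submatrix_apply] at h1
    rw [h1]
    simp only [Matrix.transvection, Matrix.add_apply, Matrix.one_apply, Matrix.single_apply,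
      Subtype.ext_iff]

end Cfsg.Agent.Lib.Helper29.Mono
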