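import Mathlib
import Cfsg.Agent.Lib.Helper29.Mono.Api

set_option autoImplicit false
set_option linter.unusedSectionVars false

/-! # [PATCH] -/

namespace Cfsg.Agent.Lib.Helper29.Mono

open Matrix
open scoped MatrixGroups

variable {ι : Type} [Fintype ι] [DecidableEq ι] {F : Type*} [Field F]

/-- [PATCH] -/
theorem c1_of_blocks [Fintype F] {G : Subgroup (GL ι F)} (hG : Ctx G)
    (hAb : ∀ J : Finset ι, 3 ≤ J.card → J ≠ Finset.univ → ∀ g ∈ G, Tri J (g : Matrix ι ι F) →
      IsMono (blk J (g : Matrix ι ι F)))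
    (hBb : ∀ J : Finset ι, 3 ≤ Jᶜ.card → J.Nonempty → ∀ g ∈ G, Tri J (g : Matrix ι ι F) →
      IsMono (blk Jᶜ (g : Matrix ι ι F)))
    (hglue : ∀ J : Finset ι, ∀ g ∈ G, Tri J (g : Matrix ι ι F) →
      IsMono (blk J (g : Matrix ι ι F)) → IsMono (blk Jᶜ (g : Matrix ι ι F)) →
      IsMono (g : Matrix ι ι F))
    (hred : ∀ (g : GL ι F) (J J' : Finset ι), J.card = J'.card →
      (∀ i j, j ∈ J → i ∉ J' → (g : Matrix ι ι F) i j = 0) →
      ∃ ν ∈ G, IsMono (ν : Matrix ι ι F) ∧ Tri J ((ν * g : GL ι F) : Matrix ι ι F)) :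
    C1Prop G := by
  have hn := hG.n13
  have hcc : ∀ J : Finset ι, J.card + Jᶜ.card = Fintype.card ι := Finset.card_add_card_compl
  have mid : ∀ g ∈ G, ∀ J J' : Finset ι, 3 ≤ J.card → 3 ≤ Jᶜ.card → J.card = J'.card →
      (∀ i j, j ∈ J → i ∉ J' → (g : Matrix ι ι F) i j = 0) → IsMono (g : Matrix ι ι F) := by
    intro g hg J J' h3 h3' hcard h
    obtain ⟨ν, hν, hνM, hT⟩ := hred g J J' hcard h
    have hJu : J ≠ Finset.univ := by
      intro hu
      rw [hu] at h3'
      simp at h3'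
    have hJne : J.Nonempty := by
      rw [← Finset.card_pos]; omega
    have hνg := G.mul_mem hν hg
    exact IsMono.of_mul_left hνM (hglue J _ hνg hT (hAb J h3 hJu _ hνg hT)
      (hBb J h3' hJne _ hνg hT))
  intro g hg J J' hJne hJu hcard h
  obtain ⟨ν, hν, hνM, hT⟩ := hred g J J' hcard h
  have hνg := G.mul_mem hν hg
  refine IsMono.of_mul_left hνM ?_
  obtain ⟨g', hg'⟩ : ∃ g' : GL ι F, g' = ν * g := ⟨_, rfl⟩
  rw [← hg'] at hT hνg ⊢
  have hc := hcc J
  by_cases h3 : 3 ≤ J.card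
  · by_cases h3' : 3 ≤ Jᶜ.card
    · exact mid g' hνg J J h3 h3' rfl hT
    · -- `J` is large
      obtain ⟨σA, hσA⟩ := hAb J h3 hJu g' hνg hT
      obtain ⟨T, hTJ, hTc⟩ := Finset.exists_subset_card_eq (s := J) (n := 3) h3
      have hcT := hcc T
      refine mid g' hνg T (T.image (Equiv.Perm.ofSubtype σA)) (by omega) (by omega)
        (by rw [Finset.card_image_of_injective _ (Equiv.injective _)]) ?_
      intro i j hj hi
      by_contra hne
      have hjJ := hTJ hj
      have hiJ : i ∈ J := by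
        by_contra hiJ
        exact hne (hT i j hjJ hiJ)
      have h1 := hσA ⟨i, hiJ⟩ ⟨j, hjJ⟩ hne
      apply hi
      rw [Finset.mem_image]
      refine ⟨j, hj, ?_⟩
      rw [Equiv.Perm.ofSubtype_apply_of_mem σA hjJ, ← h1]
  · -- `J` is small
    have h3' : 3 ≤ Jᶜ.card := by omega
    obtain ⟨σB, hσB⟩ := hBb J h3' hJne g' hνg hT
    obtain ⟨T, hTJ, hTc⟩ := Finset.exists_subset_card_eq (s := Jᶜ) (n := 3) h3'
    have hd1 : Disjoint J T := by
      rw [Finset.disjoint_left]
      intro x hx hxT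
      exact (Finset.mem_compl.1 (hTJ hxT)) hx
    have himg : ∀ x ∈ T.image (Equiv.Perm.ofSubtype σB), x ∈ Jᶜ := by
      intro x hx
      rw [Finset.mem_image] at hx
      obtain ⟨y, hy, rfl⟩ := hx
      rw [Equiv.Perm.ofSubtype_apply_of_mem σB (hTJ hy)]
      exact (σB _).2
    have hd2 : Disjoint J (T.image (Equiv.Perm.ofSubtype σB)) := by
      rw [Finset.disjoint_left]
      intro x hx hxT
      exact (Finset.mem_compl.1 (himg x hxT)) hx
    have hc1 : (J ∪ T).card = J.card + 3 := by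
      rw [Finset.card_union_of_disjoint hd1, hTc]
    have hc2 : (J ∪ T.image (Equiv.Perm.ofSubtype σB)).card = J.card + 3 := by
      rw [Finset.card_union_of_disjoint hd2, Finset.card_image_of_injective _ (Equiv.injective _),
        hTc]
    have hcT := hcc (J ∪ T)
    refine mid g' hνg (J ∪ T) (J ∪ T.image (Equiv.Perm.ofSubtype σB)) (by omega) (by omega)
      (by rw [hc1, hc2]) ?_
    intro i j hj hi
    rw [Finset.mem_union, not_or] at hi
    rcases Finset.mem_union.1 hj with hj | hj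
    · exact hT i j hj hi.1
    · by_contra hne
      have hjJ := hTJ hj
      have h1 := hσB ⟨i, Finset.mem_compl.2 hi.1⟩ ⟨j, hjJ⟩ hne
      apply hi.2
      rw [Finset.mem_image]
      refine ⟨j, hj, ?_⟩
      rw [Equiv.Perm.ofSubtype_apply_of_mem σB hjJ, ← h1]

end Cfsg.Agent.Lib.Helper29.Mono
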