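import Mathlib
import Cfsg.Agent.Lib.Helper29.Mono.Api
import Cfsg.Agent.Lib.Helper94.SLGen

set_option autoImplicit false
set_option linter.unusedSectionVars false

/-! # [SL] the root elements generate `SL` -/

namespace Cfsg.Agent.Lib.Helper29.Mono

open Matrix
open scoped MatrixGroups
open Cfsg.Agent.Lib.Helper94

variable {ι : Type} [Fintype ι] [DecidableEq ι] {F : Type*} [Field F]

lemma toGL_transvection {i j : ι} (hij : i ≠ j) (c : F) :
    Matrix.SpecialLinearGroup.toGL (Matrix.SpecialLinearGroup.transvection hij c)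
      = rootU hij c := by
  apply Units.ext
  simp [coe_rootU, Matrix.SpecialLinearGroup.transvection_coe, Matrix.transvection]

/-- [SL] -/
theorem sl_le_of_roots [Nontrivial ι] (G : Subgroup (GL ι F))
    (h : ∀ (i j : ι) (hij : i ≠ j) (t : F), rootU hij t ∈ G) (g : GL ι F)
    (hg : (g : Matrix ι ι F).det = 1) : g ∈ G := by
  have key : ∀ A : Matrix.SpecialLinearGroup ι F, Matrix.SpecialLinearGroup.toGL A ∈ G := by
    intro A
    refine Matrix.SpecialLinearGroup.diagonal_transvection_induction'
      (fun A => Matrix.SpecialLinearGroup.toGL A ∈ G) A ?_ ?_ ?_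
    · intro i j hij c hc
      have h1 : Matrix.SpecialLinearGroup.toGL (Matrix.SpecialLinearGroup.diag2n hij c hc)
          = rootU hij c * rootU hij.symm (-c⁻¹) * rootU hij c * rootU hij (-1)
            * rootU hij.symm 1 * rootU hij (-1) := by
        apply (glEquiv ι F).injective
        rw [glEquiv_diag2n]
        simp only [map_mul, ← toGL_transvection, glEquiv_transvection]
      rw [h1]
      exact G.mul_mem (G.mul_mem (G.mul_mem (G.mul_mem (G.mul_mem (h _ _ _ _) (h _ _ _ _))
        (h _ _ _ _)) (h _ _ _ _)) (h _ _ _ _)) (h _ _ _ _)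
    · intro i j hij a
      rw [toGL_transvection]
      exact h _ _ _ _
    · intro A B hA hB
      simp only [map_mul]
      exact G.mul_mem hA hB
  have : g = Matrix.SpecialLinearGroup.toGL ⟨(g : Matrix ι ι F), hg⟩ := by
    apply Units.ext
    rfl
  rw [this]
  exact key _

end Cfsg.Agent.Lib.Helper29.Mono
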