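import Mathlib
import Cfsg.Agent.Lib.Helper29.Mono.A1
import Cfsg.Agent.Lib.Helper29.Mono.A2
import Cfsg.Agent.Lib.Helper29.Mono.A3a
import Cfsg.Agent.Lib.Helper29.Mono.A3b
import Cfsg.Agent.Lib.Helper29.Mono.B1
import Cfsg.Agent.Lib.Helper29.Mono.Res
import Cfsg.Agent.Lib.Helper29.Mono.Lift
import Cfsg.Agent.Lib.Helper29.Mono.Glue
import Cfsg.Agent.Lib.Helper29.Mono.Patch
import Cfsg.Agent.Lib.Helper29.Mono.End
import Cfsg.Agent.Lib.Helper29.Mono.SL
import Cfsg.Agent.Lib.Helper29.Mono.Wrap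
import Cfsg.Agent.Lib.Helper8.Mono.RHO
import Cfsg.Agent.Lib.Helper8.Mono.B4abs
import Cfsg.Agent.Lib.Helper8.Mono.P
import Cfsg.Agent.Lib.Helper8.Mono.B4
import Cfsg.Agent.Lib.Helper8.Mono.CARD
import Cfsg.Agent.Lib.Helper8.Mono.LA
import Cfsg.Agent.Lib.Helper8.Mono.B3
import Cfsg.Agent.Lib.Helper8.Mono.GEN
import Cfsg.Agent.Lib.Helper8.Mono.RED

set_option autoImplicit false

/-! # The monomial group is maximal in `SL_n(q)`, `n ≥ 13`, `q ≥ 5`: assembly -/

namespace Cfsg.Agent.Lib.Helper29.Mono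

open Matrix
open scoped MatrixGroups
open Cfsg.Agent.Lib.Helper8.Mono

variable {ι : Type} [Fintype ι] [DecidableEq ι] {F : Type*} [Field F]

/-! ## Assembly -/

theorem thmA [Fintype F] (hq : 5 ≤ Fintype.card F) : ThmA F := by
  intro κ _ _ hκ X hM hR g hg
  have hc : ∃ c : F, c ≠ 0 ∧ c ≠ 1 := by
    classical
    obtain ⟨c, hc⟩ : ∃ c : F, c ∉ ({0, 1} : Finset F) := by
      by_contra hcon
      push Not at hcon
      have : Fintype.card F ≤ ({0, 1} : Finset F).card := by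
        rw [← Finset.card_univ]
        exact Finset.card_le_card fun x _ => hcon x
      have h3 : ({0, 1} : Finset F).card ≤ 2 := Finset.card_le_two
      omega
    simp only [Finset.mem_insert, Finset.mem_singleton, not_or] at hc
    exact ⟨c, hc.1, hc.2⟩
  have hdot : ∀ v φ, IsFam X v φ → φ ⬝ᵥ v = 1 := fun v φ h => h.1
  have hsupp : ∀ v φ, IsFam X v φ → ∀ i, v i = 0 ↔ φ i = 0 :=
    fun v φ h i => fam_supp X hM hR hc h i
  have hstep : ∀ v φ, IsFam X v φ → ∀ (i : κ) (c : F), c ≠ 0 →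
      IsFam X (Pi.single i 1 + ((c - 1) * φ i) • v) (Pi.single i 1 + ((c⁻¹ - 1) * v i) • φ) :=
    fun v φ h i c hc => fam_step X hM h i c hc
  have halpha := fam_alpha (IsFam X) hsupp hstep
  have hno2 : ∀ v φ, IsFam X v φ → ∀ i j, i ≠ j → v i ≠ 0 → v j ≠ 0 →
      (∀ k, k ≠ i → k ≠ j → v k = 0) → False := by
    intro v φ h i j hij hi hj h0
    obtain ⟨m, hm⟩ : ∃ m : κ, m ∉ ({i, j} : Finset κ) := by
      by_contra hcon
      push Not at hcon
      have : Fintype.card κ ≤ ({i, j} : Finset κ).card := by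
        rw [← Finset.card_univ]
        exact Finset.card_le_card fun x _ => hcon x
      have h3 : ({i, j} : Finset κ).card ≤ 2 := Finset.card_le_two
      omega
    simp only [Finset.mem_insert, Finset.mem_singleton, not_or] at hm
    exact fam_no_two hq (IsFam X) hdot hsupp halpha
      (fun v φ v' φ' h h' c hc => fam_two X h h' c hc) (fun v φ h σ => fam_perm X hM h σ)
      v φ h i j m hij hm.1 hm.2 hi hj h0
  refine mono_of_rows g fun k i j hi hj => ?_
  have hf := fam_row X hM hg k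
  have h1 := fam_induct hq (IsFam X) hdot hsupp hstep halpha hno2 _ _ hf i j
  apply h1
  · intro h0
    exact hi ((hsupp _ _ hf i).1 h0)
  · intro h0
    exact hj ((hsupp _ _ hf j).1 h0)

theorem ablock [Fintype F] {G : Subgroup (GL ι F)} (hG : Ctx G) (J : Finset ι) (h3 : 3 ≤ J.card)
    (hJ : J ≠ Finset.univ) (g : GL ι F) (hg : g ∈ G) (hT : Tri J (g : Matrix ι ι F)) :
    IsMono (blk J (g : Matrix ι ι F)) := by
  have h := thmA hG.q5 {x // x ∈ J} (by rw [Fintype.card_coe]; exact h3) (resSub G J)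
    (fun A hA => mono_mem_resSub hG J hJ A hA) (no_root_resSub hG (b1 hG) J)
    (resHom J ⟨g, hT⟩) ((mem_resSub G J _).2 ⟨g, hg, hT, (coe_resHom J ⟨g, hT⟩).symm⟩)
  rwa [coe_resHom] at h

theorem bblock [Fintype F] {G : Subgroup (GL ι F)} (hG : Ctx G) (J : Finset ι)
    (h3 : 3 ≤ Jᶜ.card) (hJ : J.Nonempty) (g : GL ι F) (hg : g ∈ G)
    (hT : Tri J (g : Matrix ι ι F)) : IsMono (blk Jᶜ (g : Matrix ι ι F)) := by
  obtain ⟨x, hx, hxg⟩ := exists_transpose_mem G hg
  have hJc : Jᶜ ≠ Finset.univ := by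
    intro h
    obtain ⟨a, ha⟩ := hJ
    have : a ∈ Jᶜ := h ▸ Finset.mem_univ a
    exact (Finset.mem_compl.1 this) ha
  have hTx : Tri Jᶜ (x : Matrix ι ι F) := by
    intro i j hj hi
    rw [hxg, Matrix.transpose_apply]
    exact hT j i (by simpa using hi) (by simpa using hj)
  have h := (ablock hG.tSub Jᶜ h3 hJc x hx hTx).transpose
  have : (blk Jᶜ (x : Matrix ι ι F))ᵀ = blk Jᶜ (g : Matrix ι ι F) := by
    ext i j
    simp [blk, hxg]
  rwa [this] at h

theorem c1 [Fintype F] {G : Subgroup (GL ι F)} (hG : Ctx G) : C1Prop G :=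
  c1_of_blocks hG (fun J h3 hJ g hg hT => ablock hG J h3 hJ g hg hT)
    (fun J h3 hJ g hg hT => bblock hG J h3 hJ g hg hT)
    (fun J g hg hT hA hB => glue hG (b1 hG) J g hg hT hA hB)
    (fun g J J' hc h => reduce_tri hG g J J' hc h)

theorem ctx_mono [Fintype F] {G : Subgroup (GL ι F)} (hG : Ctx G) :
    ∀ g ∈ G, IsMono (g : Matrix ι ι F) := by
  have hC1 := c1 hG
  have hB3 := b3 hG hC1 card_le_of_zero_block
  have hB4 := b4 hG hB3 (exists_rho hG.q5) (fun N X r hr a b g ha hb hao hbo hg hu =>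
    fixed_point_transfer N X r hr a b g ha hb hao hbo hg hu)
  exact endgame hG hC1 hB4 (pP hB4) exists_small_span

theorem mono_main [Fintype F] (hq : 5 ≤ Fintype.card F) (hn : 13 ≤ Fintype.card ι)
    (G : Subgroup (GL ι F))
    (hN : ∀ g : GL ι F, IsMono (g : Matrix ι ι F) → (g : Matrix ι ι F).det = 1 → g ∈ G)
    (hSL : ∀ g ∈ G, (g : Matrix ι ι F).det = 1) (g0 : GL ι F) (hg0 : g0 ∈ G)
    (h0 : ¬ IsMono (g0 : Matrix ι ι F)) (g : GL ι F) (hg : (g : Matrix ι ι F).det = 1) :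
    g ∈ G := by
  have : Nontrivial ι := Fintype.one_lt_card_iff_nontrivial.1 (by omega)
  by_cases hR : HasRoot G
  · exact sl_le_of_roots G (all_roots (by omega) G hN hR) g hg
  · exact absurd (ctx_mono ⟨hq, hn, hN, hSL, hR⟩ g0 hg0) h0

open Cfsg.Agent.Lib.Helper94 Module in
theorem core_one {F V : Type*} [Field F] [Fintype F] [AddCommGroup V] [Module F V] [FiniteDimensional F V]
    {t : ℕ} (D : Fin t → Submodule F V) (hfr : ∀ i, finrank F (D i) = 1) (hind : iSupIndep D)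
    (htop : iSup D = ⊤) (ht : 13 ≤ t) (hq : 5 ≤ Fintype.card F)
    (G : Subgroup (V ≃ₗ[F] V))
    (hP : ∀ φ : V ≃ₗ[F] V, LinearMap.det (φ : V →ₗ[F] V) = 1 → DecStab D φ → φ ∈ G)
    (φ0 : V ≃ₗ[F] V) (hφ0 : φ0 ∈ G) (hdet : LinearMap.det (φ0 : V →ₗ[F] V) = 1)
    (hns : ¬ DecStab D φ0) :
    ∀ (f : Dual F V) (v : V) (h : f v = 0), LinearEquiv.transvection h ∈ G :=
  core_one_of_main (fun _ _ _ hκ G' hN hSL g0 hg0 h0 g hg =>
    mono_main hq hκ G' hN hSL g0 hg0 h0 g hg) D hfr hind htop ht G hP φ0 hφ0 hdet hns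

end Cfsg.Agent.Lib.Helper29.Mono
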