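import Mathlib
import Cfsg.Agent.Lib.Helper29.Mono.Api
import Cfsg.Agent.Lib.Helper94.SLDec

set_option autoImplicit false
set_option linter.unusedSectionVars false

/-! # [WRAP] from matrices to a decomposition into lines -/

namespace Cfsg.Agent.Lib.Helper29.Mono

open Matrix
open scoped MatrixGroups
open Cfsg.Agent.Lib.Helper94 Module

/-- the matrix of an automorphism in a basis, as an isomorphism of groups -/
noncomputable def matEquiv {F V : Type*} [Field F] [AddCommGroup V] [Module F V] {κ : Type}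
    [Fintype κ] [DecidableEq κ] (b : Basis κ F V) : (V ≃ₗ[F] V) ≃* GL κ F :=
  (LinearMap.GeneralLinearGroup.generalLinearEquiv F V).symm.trans
    (Units.mapEquiv (LinearMap.toMatrixAlgEquiv b).toMulEquiv)

lemma coe_matEquiv {F V : Type*} [Field F] [AddCommGroup V] [Module F V] {κ : Type}
    [Fintype κ] [DecidableEq κ] (b : Basis κ F V) (φ : V ≃ₗ[F] V) :
    (matEquiv b φ : Matrix κ κ F) = LinearMap.toMatrix b b (φ : V →ₗ[F] V) := by
  rfl

/-- [WRAP] -/
theorem core_one_of_main {F V : Type*} [Field F] [Fintype F] [AddCommGroup V] [Module F V]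
    [FiniteDimensional F V]
    (hmain : ∀ (κ : Type) [Fintype κ] [DecidableEq κ], 13 ≤ Fintype.card κ →
      ∀ G' : Subgroup (GL κ F),
      (∀ g : GL κ F, IsMono (g : Matrix κ κ F) → (g : Matrix κ κ F).det = 1 → g ∈ G') →
      (∀ g ∈ G', (g : Matrix κ κ F).det = 1) → ∀ g0 ∈ G', ¬ IsMono (g0 : Matrix κ κ F) →
      ∀ g : GL κ F, (g : Matrix κ κ F).det = 1 → g ∈ G')
    {t : ℕ} (D : Fin t → Submodule F V) (hfr : ∀ i, finrank F (D i) = 1) (hind : iSupIndep D)
    (htop : iSup D = ⊤) (ht : 13 ≤ t)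
    (G : Subgroup (V ≃ₗ[F] V))
    (hP : ∀ φ : V ≃ₗ[F] V, LinearMap.det (φ : V →ₗ[F] V) = 1 → DecStab D φ → φ ∈ G)
    (φ0 : V ≃ₗ[F] V) (hφ0 : φ0 ∈ G) (hdet : LinearMap.det (φ0 : V →ₗ[F] V) = 1)
    (hns : ¬ DecStab D φ0) :
    ∀ (f : Dual F V) (v : V) (h : f v = 0), LinearEquiv.transvection h ∈ G := by
  classical
  obtain ⟨bs, hmem, hspan⟩ := exists_adapted_basis D hfr hind htop
  obtain ⟨b, hb⟩ : ∃ b : Basis (Fin t) F V, ∀ i, b i = bs ⟨i, 0⟩ :=
    ⟨bs.reindex (Equiv.sigmaUnique (Fin t) (fun _ => Fin 1)), fun i => by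
      rw [Basis.reindex_apply]
      rfl⟩
  have hbmem : ∀ i, b i ∈ D i := fun i => by rw [hb]; exact hmem ⟨i, 0⟩
  have hbspan : ∀ j, ∀ w ∈ D j, ∃ c : F, w = c • b j := by
    intro j w hw
    obtain ⟨c, hc⟩ := hspan j w hw
    refine ⟨c 0, ?_⟩
    rw [hc, hb]
    simp
  have hdetE : ∀ φ : V ≃ₗ[F] V, (matEquiv b φ : Matrix (Fin t) (Fin t) F).det
      = LinearMap.det (φ : V →ₗ[F] V) := by
    intro φ
    rw [coe_matEquiv, LinearMap.det_toMatrix]
  have hmono : ∀ φ : V ≃ₗ[F] V, IsMono (matEquiv b φ : Matrix (Fin t) (Fin t) F) →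
      DecStab D φ := by
    rintro φ ⟨σ, hσ⟩
    refine ⟨σ, fun j => ?_⟩
    refine map_eq_of_forall_mem φ _ _ (by rw [hfr, hfr]) ?_
    intro w hw
    obtain ⟨c, rfl⟩ := hbspan j w hw
    rw [map_smul]
    refine (D (σ j)).smul_mem _ ?_
    rw [← b.sum_repr (φ (b j))]
    refine Submodule.sum_mem _ fun i _ => ?_
    by_cases hi : i = σ j
    · rw [hi]
      exact (D (σ j)).smul_mem _ (hbmem _)
    · have : b.repr (φ (b j)) i = 0 := by
        by_contra hne
        apply hi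
        apply hσ
        rw [coe_matEquiv, LinearMap.toMatrix_apply]
        exact hne
      rw [this, zero_smul]
      exact Submodule.zero_mem _
  obtain ⟨G', hG'⟩ : ∃ G' : Subgroup (GL (Fin t) F), ∀ g, g ∈ G' ↔
      ((matEquiv b).symm g ∈ G ∧ (g : Matrix (Fin t) (Fin t) F).det = 1) := by
    refine ⟨(G.comap (matEquiv b).symm.toMonoidHom) ⊓ (Matrix.GeneralLinearGroup.det).ker,
      fun g => ?_⟩
    rw [Subgroup.mem_inf, MonoidHom.mem_ker, Units.ext_iff]
    rfl
  have key := hmain (Fin t) (by simpa using ht) G' ?_ (fun g hg => ((hG' g).1 hg).2)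
    (matEquiv b φ0) ?_ (fun h => hns (hmono φ0 h))
  · intro f v h
    have h1 := key (matEquiv b (LinearEquiv.transvection h)) (by
      rw [hdetE]
      exact tr_det f v h)
    have h2 := ((hG' _).1 h1).1
    rwa [MulEquiv.symm_apply_apply] at h2
  · intro g hg hgd
    rw [hG']
    refine ⟨hP _ ?_ (hmono _ ?_), hgd⟩
    · rw [← hdetE, MulEquiv.apply_symm_apply]
      exact hgd
    · rw [MulEquiv.apply_symm_apply]
      exact hg
  · rw [hG', MulEquiv.symm_apply_apply, hdetE]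
    exact ⟨hφ0, hdet⟩

end Cfsg.Agent.Lib.Helper29.Mono
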